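import Cfsg.Agent.J4u.R2
import Cfsg.Prelude.Def_Spor_J4

/-! The twelve relators and the basic relations. -/

set_option autoImplicit false
set_option maxRecDepth 100000

namespace CA.J4u

open CA.M24 CA.J4 Cfsg Equiv

noncomputable section

variable {Γ : Type*} [Group Γ]

/-- the relators in the first two generators -/
def Rel7 (x y : Γ) : Prop := x ^ 2 = 1 ∧ y ^ 3 = 1 ∧ (x * y) ^ 23 = 1 ∧ (x⁻¹ * y⁻¹ * x * y) ^ 12 = 1 ∧
  (x⁻¹ * (y * x * y)⁻¹ * x * (y * x * y)) ^ 5 = 1 ∧ (x * y * ((x * y * x * (y⁻¹)) ^ 3)) ^ 4 = 1 ∧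
  ((x * y * x * y * x * (y⁻¹)) ^ 3) * ((x * y * x * (y⁻¹) * x * (y⁻¹)) ^ 3) = 1

/-- the other relators -/
def Rel5 (x y t : Γ) : Prop := t ^ 2 = 1 ∧
  t⁻¹ * (y * x * y * ((x * (y⁻¹)) ^ 2) * ((x * y) ^ 3))⁻¹ * t * (y * x * y * ((x * (y⁻¹)) ^ 2) * ((x * y) ^ 3)) = 1 ∧
  t⁻¹ * x⁻¹ * t * x = 1 ∧
  (y * ((y * x * (y⁻¹) * x * y * x * (y⁻¹) * x)⁻¹ * t * (y * x * (y⁻¹) * x * y * x * (y⁻¹) * x))) ^ 3 = 1 ∧
  (((y * x * y * x * y * x * y) ^ 3) * t * ((((x * y) ^ 3) * y * ((x * y) ^ 6) * y)⁻¹ * t *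
    (((x * y) ^ 3) * y * ((x * y) ^ 6) * y))) ^ 2 = 1

/-- the generators of the presented group -/
def jx : Spor.J4 := PresentedGroup.of Spor.J4.Gen.x
def jy : Spor.J4 := PresentedGroup.of Spor.J4.Gen.y
def jt : Spor.J4 := PresentedGroup.of Spor.J4.Gen.t

theorem rel_iff (f : FreeGroup Spor.J4.Gen →* Γ) :
    (∀ r ∈ Spor.coxRelators Spor.J4.edges ∪ {r | r ∈ Spor.J4.extra}, f r = 1) ↔
      Rel7 (f Spor.J4.x) (f Spor.J4.y) ∧ Rel5 (f Spor.J4.x) (f Spor.J4.y) (f Spor.J4.t) := by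
  have e : Spor.coxRelators Spor.J4.edges = ∅ := by simp [Spor.coxRelators, Spor.coxNodes, Spor.J4.edges]
  simp only [e, Set.empty_union, Set.mem_setOf_eq, Spor.J4.extra, List.mem_cons, List.not_mem_nil, or_false,
    forall_eq_or_imp, forall_eq, map_mul, map_pow, map_inv, Rel7, Rel5, and_assoc]

theorem rel_J4 : Rel7 jx jy ∧ Rel5 jx jy jt :=
  (rel_iff (PresentedGroup.mk _)).1 fun _ h => PresentedGroup.one_of_mem h

theorem exists_lift {x y t : Γ} (h : Rel7 x y) (h' : Rel5 x y t) :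
    ∃ φ : Spor.J4 →* Γ, φ jx = x ∧ φ jy = y ∧ φ jt = t := by
  let f : Spor.J4.Gen → Γ := fun g => match g with | .x => x | .y => y | .t => t
  refine ⟨PresentedGroup.toGroup (f := f) ((rel_iff (FreeGroup.lift f)).2 ?_), PresentedGroup.toGroup.of _,
    PresentedGroup.toGroup.of _, PresentedGroup.toGroup.of _⟩
  simpa only [FreeGroup.lift_apply_of] using And.intro h h'

theorem gen_J4 {H : Subgroup Spor.J4} (hx : jx ∈ H) (hy : jy ∈ H) (ht : jt ∈ H) : H = ⊤ :=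
  eq_top_iff.2 fun g _ => PresentedGroup.generated_by _ H (fun j => by cases j <;> assumption) g

/-- `g` is the image of the permutation with code `c` -/
structure RC (κ : M24 →* Γ) (c : ℕ) (g : Γ) : Prop where
  mem : InH M24 c
  eq : kc κ c = g

namespace RC
variable {κ : M24 →* Γ} {a b : ℕ} {g h : Γ}
theorem mul (p : RC κ a g) (q : RC κ b h) : RC κ (pmul a b) (g * h) :=
  ⟨p.1.mul q.1, by rw [kc_mul _ p.1 q.1, p.2, q.2]⟩
theorem inv (p : RC κ a g) : RC κ (pinv a) g⁻¹ := ⟨p.1.inv, by rw [kc_inv _ p.1, p.2]⟩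
theorem pow (p : RC κ a g) (n : ℕ) : RC κ (ppow a n) (g ^ n) := by
  obtain ⟨⟨q, hq, rfl⟩, rfl⟩ := p
  rw [ppow_code]
  exact ⟨⟨_, pow_mem hq n, rfl⟩, (kc_code κ (⟨q, hq⟩ ^ n)).trans (by rw [map_pow, kc_code κ ⟨q, hq⟩])⟩
theorem eq_kc (p : RC κ a g) (e : a = b) : g = kc κ b := e ▸ p.2.symm
theorem eq_one (p : RC κ a g) (e : a = pone) : g = 1 := (p.eq_kc e).trans (kc_one κ)
end RC

theorem rel7_of {κ : M24 →* Γ} {x y : Γ} (hx : RC κ x0 x) (hy : RC κ y0 y) : Rel7 x y :=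
  ⟨(hx.pow 2).eq_one (by decide +kernel),
    (hy.pow 3).eq_one (by decide +kernel),
    ((hx.mul hy).pow 23).eq_one (by decide +kernel),
    ((((hx.inv.mul hy.inv).mul hx).mul hy).pow 12).eq_one (by decide +kernel),
    ((((hx.inv.mul ((hy.mul hx).mul hy).inv).mul hx).mul ((hy.mul hx).mul hy)).pow 5).eq_one (by decide +kernel),
    (((hx.mul hy).mul ((((hx.mul hy).mul hx).mul hy.inv).pow 3)).pow 4).eq_one (by decide +kernel),
    (((((((hx.mul hy).mul hx).mul hy).mul hx).mul hy.inv).pow 3).mul ((((((hx.mul hy).mul hx).mul hy.inv).mul hx).mul hy.inv).pow 3)).eq_one (by decide +kernel)⟩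

theorem rel5_iff {κ : M24 →* Γ} {x y t : Γ} (hx : RC κ x0 x) (hy : RC κ y0 y) :
    Rel5 x y t ↔ RK κ t ∧ R2 κ t := by
  have e1 : y * x * y * ((x * (y⁻¹)) ^ 2) * ((x * y) ^ 3) = kc κ w0 :=
    ((((hy.mul hx).mul hy).mul ((hx.mul hy.inv).pow 2)).mul ((hx.mul hy).pow 3)).eq_kc (by decide +kernel)
  have e2 : y * x * (y⁻¹) * x * y * x * (y⁻¹) * x = kc κ c1 :=
    (((((((hy.mul hx).mul hy.inv).mul hx).mul hy).mul hx).mul hy.inv).mul hx).eq_kc (by decide +kernel)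
  have e3 : (y * x * y * x * y * x * y) ^ 3 = kc κ pi0 :=
    (((((((hy.mul hx).mul hy).mul hx).mul hy).mul hx).mul hy).pow 3).eq_kc (by decide +kernel)
  have e4 : ((x * y) ^ 3) * y * ((x * y) ^ 6) * y = kc κ c2 :=
    (((((hx.mul hy).pow 3).mul hy).mul ((hx.mul hy).pow 6)).mul hy).eq_kc (by decide +kernel)
  have e5 : kc κ c1 * y * (kc κ c1)⁻¹ = kc κ m1 :=
    (((RC.mk c1_in rfl).mul hy).mul (RC.mk c1_in rfl).inv).eq_kc (by decide +kernel)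
  have cm : ∀ a : Γ, t⁻¹ * a⁻¹ * t * a = 1 ↔ Commute t a := fun a => by
    rw [commute_iff_eq]
    constructor
    · intro h
      calc t * a = a * t * (t⁻¹ * a⁻¹ * t * a) := by group
        _ = _ := by rw [h, mul_one]
    · intro h
      rw [mul_assoc, h]; group
  have e6 : (y * ((kc κ c1)⁻¹ * t * kc κ c1)) ^ 3 = (kc κ c1)⁻¹ * (kc κ m1 * t) ^ 3 * (kc κ c1)⁻¹⁻¹ := by
    rw [← conj_pow, ← e5]; congr 1; group
  rw [Rel5, e1, e2, e3, e4, cm, cm, e6, conj_eq_one_iff, pow_two, ← hx.2]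
  exact ⟨fun h => ⟨⟨h.1, h.2.2.1, h.2.1, h.2.2.2.1⟩, h.2.2.2.2⟩, fun h => ⟨h.1.t2, h.1.tw, h.1.tx, h.1.ga, h.2⟩⟩

theorem phi_of {κ : M24 →* Γ} {t : Γ} (h : RK κ t) (h2 : R2 κ t) :
    ∃ φ : Spor.J4 →* Γ, φ jx = kc κ x0 ∧ φ jy = kc κ y0 ∧ φ jt = t :=
  exists_lift (rel7_of ⟨x0_in, rfl⟩ ⟨y0_in, rfl⟩) ((rel5_iff ⟨x0_in, rfl⟩ ⟨y0_in, rfl⟩).2 ⟨h, h2⟩)

end

theorem realizeEqns_J4u_Phi : True := by
  have := @CA.J4u.Rel5.eq_1.{0}
  have := @CA.J4u.Rel5.eq_def.{0}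
  have := @CA.J4u.Rel5.congr_simp.{0}
  have := @CA.J4u.jt.eq_1
  have := @CA.J4u.jt.eq_def
  have := @CA.J4u.jt.congr_simp
  have := @CA.J4u.jx.eq_1
  have := @CA.J4u.jx.eq_def
  have := @CA.J4u.jx.congr_simp
  have := @CA.J4u.Rel7.eq_1.{0}
  have := @CA.J4u.Rel7.eq_def.{0}
  have := @CA.J4u.Rel7.congr_simp.{0}
  have := @CA.J4u.jy.eq_1
  have := @CA.J4u.jy.eq_def
  have := @CA.J4u.jy.congr_simp
  trivial

end CA.J4u
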