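import Cfsg.Agent.J4u.RS

/-! A checker for derivations of identities between words. -/

set_option autoImplicit false
set_option maxRecDepth 100000

namespace CA.J4u

open CA.M24 CA.J4 Cfsg Equiv

noncomputable section

theorem Ok.ge {e : ℕ} (h : Ok e) : 64 ≤ e := by
  by_contra hc
  obtain ⟨-, g, -, e1⟩ := h
  have e2 : sn e = e := by rw [sn_eq]; exact Nat.mod_eq_of_lt (by omega)
  have a : ∀ e < 64, dig e 2 = dig e 3 := by decide
  have b := a e (by omega)
  rw [← e2, ← e1, dig_code g (by norm_num), dig_code g (by norm_num)] at b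
  have c : g (pt 2) = g (pt 3) := by rw [← pt_idx (g (pt 2)), b, pt_idx]
  exact absurd (g.injective c) (by decide)

abbrev Side := ℕ × List ℕ × ℕ
abbrev Lem := Side × Side
abbrev KB := List ℕ → Bool

def flat (s : Side) : List ℕ := s.1 :: (s.2.1 ++ [s.2.2])
def Good (l : List ℕ) : Prop := ∀ n ∈ l, n < 64 ∨ Ok n
def GoodS (s : Side) : Prop := Ok s.1 ∧ Good s.2.1 ∧ Ok s.2.2

/-- case split on a list -/
def hd (w : List ℕ) (f : ℕ → List ℕ → Bool) : Bool :=
  List.rec (motive := fun _ => Bool) false (fun a r _ => f a r) w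
/-- case split, the head being a code -/
def hb (w : List ℕ) (f : ℕ → List ℕ → Bool) : Bool := hd w fun a r => band (Nat.ble (nat_lit 64) a) (f a r)
def atP (f : List ℕ → KB → Bool) (i : ℕ) : List ℕ → KB → Bool :=
  Nat.rec (motive := fun _ => List ℕ → KB → Bool) f
    (fun _ ih w k => hd w fun a r => ih r fun r' => k (a :: r')) i
def strip (X : List ℕ) : List ℕ → KB → Bool :=
  List.rec (motive := fun _ => List ℕ → KB → Bool) (fun w k => k w)
    (fun x _ ih w k => hd w fun a r => band (Nat.beq a x) (ih r k)) X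
def appK (X r : List ℕ) : KB → Bool :=
  List.rec (motive := fun _ => KB → Bool) (fun k => k r) (fun x _ ih k => ih fun l => k (x :: l)) X
def isNil (X : List ℕ) : Bool := List.rec (motive := fun _ => Bool) true (fun _ _ _ => false) X
def mulR (a p : ℕ) : ℕ := bif' (Nat.beq p pone) a (emul a p)
def mulL (p a : ℕ) : ℕ := bif' (Nat.beq p pone) a (emul p a)
def divR (a p : ℕ) : ℕ := bif' (Nat.beq p pone) a (force (einv p) fun q => emul a q)
def divL (p a : ℕ) : ℕ := bif' (Nat.beq p pone) a (force (einv p) fun q => emul q a)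
/-- replace `P` by `Q` at the start of a word -/
def rep (P Q : Side) (w : List ℕ) (k : KB) : Bool :=
  hb w fun a r => strip P.2.1 r fun r' => hb r' fun b post =>
    force (divR a P.1) fun a1 => force (mulR a1 Q.1) fun a2 => force (divL P.2.2 b) fun b1 =>
      force (mulL Q.2.2 b1) fun b2 =>
        bif' (isNil Q.2.1) (force (mulR a2 b2) fun c => k (c :: post)) (appK Q.2.1 (b2 :: post) fun l => k (a2 :: l))
def nth (T : List Lem) : ℕ → (Lem → Bool) → Bool :=
  List.rec (motive := fun _ => ℕ → (Lem → Bool) → Bool) (fun _ _ => false)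
    (fun L _ ih n k => Nat.rec (motive := fun _ => Bool) (k L) (fun m _ => ih m k) n) T
def movL (mv : ℕ → ℕ → ℕ) (h : ℕ) (w : List ℕ) (k : KB) : Bool :=
  hb w fun a r => hd r fun s r' => hb r' fun b post => band (blt' s (nat_lit 64)) (force (mv s h) fun g =>
    band (bne' g (nat_lit 0)) (force (mulR a g) fun a1 => force (divL h b) fun b1 => k (a1 :: s :: b1 :: post)))
def movR (mv : ℕ → ℕ → ℕ) (h : ℕ) (w : List ℕ) (k : KB) : Bool :=
  hb w fun a r => hd r fun s r' => hb r' fun b post => band (blt' s (nat_lit 64)) (force (mv s h) fun g =>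
    band (bne' g (nat_lit 0)) (force (divR a h) fun a1 => force (mulL g b) fun b1 => k (a1 :: s :: b1 :: post)))
/-- move a left factor across the first symbol so that the next letter becomes the one of `L`, then apply `L` -/
def apm (mv : ℕ → ℕ → ℕ) (L : Lem) (w : List ℕ) (k : KB) : Bool :=
  hb w fun a r => hd r fun s r' => hb r' fun b post => band (blt' s (nat_lit 64))
    (hd L.1.2.1 fun _ X => hb X fun y _ => force (divR b y) fun h => force (mv s h) fun g =>
      band (bne' g (nat_lit 0)) (force (mulR a g) fun a1 => rep L.1 L.2 (a1 :: s :: y :: post) k))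
def spl (x : ℕ) (w : List ℕ) (k : KB) : Bool :=
  hb w fun a r => force (divR a x) fun a1 => k (a1 :: x :: r)
def mrg (w : List ℕ) (k : KB) : Bool :=
  hb w fun a r => hb r fun b post => force (mulR a b) fun c => k (c :: post)
def chkD (x : ℕ) : Bool := bor (Nat.beq x pone) (chkE x)
def opK (mv : ℕ → ℕ → ℕ) (T : List Lem) (o n : ℕ) (w : List ℕ) (k : KB) : Bool :=
  bif' (Nat.beq o (nat_lit 0)) (nth T n fun L => rep L.1 L.2 w k)
  (bif' (Nat.beq o (nat_lit 1)) (nth T n fun L => rep L.2 L.1 w k)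
  (bif' (Nat.beq o (nat_lit 2)) (nth T n fun L => apm mv L w k)
  (bif' (Nat.beq o (nat_lit 3)) (band (chkD n) (movL mv n w k))
  (bif' (Nat.beq o (nat_lit 4)) (band (chkD n) (movR mv n w k))
  (bif' (Nat.beq o (nat_lit 5)) (band (chkD n) (spl n w k)) (mrg w k))))))
def step (mv : ℕ → ℕ → ℕ) (T : List Lem) (s : ℕ) (w : List ℕ) (k : KB) : Bool :=
  force (Nat.land s (nat_lit 7)) fun o => force (Nat.land (Nat.shiftRight s (nat_lit 3)) (nat_lit 127)) fun i =>
    force (Nat.shiftRight s (nat_lit 10)) fun n => atP (opK mv T o n) i w k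
def steps (mv : ℕ → ℕ → ℕ) (T : List Lem) (l : List ℕ) : List ℕ → KB → Bool :=
  List.rec (motive := fun _ => List ℕ → KB → Bool) (fun w k => k w)
    (fun s _ ih w k => step mv T s w fun w' => ih w' k) l
def chkL (l : List ℕ) : Bool := allL (fun n => bor (blt' n (nat_lit 64)) (chkD n)) l
def lastK (r : List ℕ) : ℕ → (List ℕ → ℕ → Bool) → Bool :=
  List.rec (motive := fun _ => ℕ → (List ℕ → ℕ → Bool) → Bool) (fun a k => k [] a)
    (fun b _ ih a k => ih b fun l z => k (a :: l) z) r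
def toSide (w : List ℕ) (k : Side → Bool) : Bool :=
  hb w fun a r => bif' (isNil r) (k (a, [], pone))
    (hd r fun b r' => lastK r' b fun l z => band (Nat.ble (nat_lit 64) z) (k (a, l, z)))
def run (mv : ℕ → ℕ → ℕ) (sc : List (List ℕ × List ℕ)) : List Lem → (List Lem → Bool) → Bool :=
  List.rec (motive := fun _ => List Lem → (List Lem → Bool) → Bool) (fun T k => k T)
    (fun e _ ih T k => band (chkL e.1) (toSide e.1 fun S => steps mv T e.2 e.1 fun w => toSide w fun S' =>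
      ih ((S, S') :: T) k)) sc
/-- each goal is a pair of words; the scripts are listed separately -/
def goals (mv : ℕ → ℕ → ℕ) (T : List Lem) (gs : List (List ℕ × List ℕ)) : List (List ℕ) → Bool :=
  List.rec (motive := fun _ => List (List ℕ) → Bool) (fun _ => true)
    (fun g _ ih sc => List.rec (motive := fun _ => Bool) false (fun s r _ =>
      band (band (chkL g.1) (steps mv T s g.1 fun w => strip g.2 w isNil)) (ih r)) sc) gs
def chkAll (mv : ℕ → ℕ → ℕ) (T : List Lem) (sc gs : List (List ℕ × List ℕ)) (gc : List (List ℕ)) : Bool :=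
  run mv sc T fun T' => goals mv T' gs gc

def initK (I : List (List ℕ × List ℕ)) : (List Lem → Bool) → Bool :=
  List.rec (motive := fun _ => (List Lem → Bool) → Bool) (fun k => k [])
    (fun g _ ih k => ih fun T => toSide g.1 fun S => toSide g.2 fun S' => k ((S, S') :: T)) I
def chkW (mv : ℕ → ℕ → ℕ) (I sc gs : List (List ℕ × List ℕ)) (gc : List (List ℕ)) : Bool :=
  initK I fun T => chkAll mv T sc gs gc

theorem hd_spec {w : List ℕ} {f : ℕ → List ℕ → Bool} (h : hd w f = true) : ∃ a r, w = a :: r ∧ f a r = true := by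
  cases w with
  | nil => exact absurd h (by simp [hd])
  | cons a r => exact ⟨a, r, rfl, h⟩

theorem good_cons {a : ℕ} {r : List ℕ} : Good (a :: r) ↔ (a < 64 ∨ Ok a) ∧ Good r := by simp [Good]
theorem good_nil : Good [] := by simp [Good]
theorem Good.cons {a : ℕ} {r : List ℕ} (ha : Ok a) (h : Good r) : Good (a :: r) := good_cons.2 ⟨Or.inr ha, h⟩
theorem good_append {l r : List ℕ} : Good (l ++ r) ↔ Good l ∧ Good r := by
  simp only [Good, List.mem_append]
  exact ⟨fun h => ⟨fun n a => h n (Or.inl a), fun n a => h n (Or.inr a)⟩, fun h n a => a.elim (h.1 n) (h.2 n)⟩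

theorem hb_spec {w : List ℕ} {f : ℕ → List ℕ → Bool} (hw : Good w) (h : hb w f = true) :
    ∃ a r, w = a :: r ∧ Ok a ∧ Good r ∧ f a r = true := by
  obtain ⟨a, r, rfl, e⟩ := hd_spec h
  rw [band_eq_true, ble_iff] at e
  exact ⟨a, r, rfl, (good_cons.1 hw).1.resolve_left (Nat.not_lt.2 e.1), (good_cons.1 hw).2, e.2⟩

theorem strip_spec {X w : List ℕ} {k : KB} (h : strip X w k = true) : ∃ r, w = X ++ r ∧ k r = true := by
  induction X generalizing w with
  | nil => exact ⟨w, rfl, h⟩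
  | cons x X ih =>
    obtain ⟨a, r, rfl, e⟩ := hd_spec h
    rw [band_eq_true, beq_iff] at e
    obtain ⟨r', rfl, e'⟩ := ih e.2
    exact ⟨r', by rw [e.1]; rfl, e'⟩

theorem appK_eq (X r : List ℕ) (k : KB) : appK X r k = k (X ++ r) := by
  induction X generalizing k with
  | nil => rfl
  | cons x X ih => exact ih _

theorem isNil_iff {X : List ℕ} : isNil X = true ↔ X = [] := by cases X <;> simp [isNil]

theorem nth_spec {T : List Lem} {n : ℕ} {k : Lem → Bool} (h : nth T n k = true) : ∃ L ∈ T, k L = true := by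
  induction T generalizing n with
  | nil => exact absurd h (by simp [nth])
  | cons L T ih =>
    cases n with
    | zero => exact ⟨L, by simp, h⟩
    | succ m => obtain ⟨L', a, b⟩ := ih (n := m) h; exact ⟨L', by simp [a], b⟩

theorem ok_of_chkD {x : ℕ} (h : chkD x = true) : Ok x := by
  rcases bor_eq_true.1 h with h | h
  · rw [beq_iff.1 h]; exact ok_one
  · exact ok_of_chk h

theorem good_of_chkL {l : List ℕ} (h : chkL l = true) : Good l := fun n hn =>
  (bor_eq_true.1 (allL_eq_true.1 h n hn)).imp blt'_eq_true.1 ok_of_chkD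

theorem lastK_spec {r : List ℕ} {a : ℕ} {k : List ℕ → ℕ → Bool} (h : lastK r a k = true) :
    ∃ l z, a :: r = l ++ [z] ∧ k l z = true := by
  induction r generalizing a k with
  | nil => exact ⟨[], a, rfl, h⟩
  | cons b r ih =>
    obtain ⟨l, z, e, f⟩ := ih (a := b) h
    exact ⟨a :: l, z, by rw [e]; rfl, f⟩

variable {Γ : Type*} [Group Γ] (μ : MH Γ) (sy : ℕ → Γ)

theorem mulR_spec {a p : ℕ} (ha : Ok a) (hp : Ok p) : Ok (mulR a p) ∧ μ.ev (mulR a p) = μ.ev a * μ.ev p := by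
  rw [mulR, bif'_eq]
  split_ifs with h
  · exact ⟨ha, by rw [beq_iff.1 h, μ.ev_one, mul_one]⟩
  · exact ⟨ha.mul hp, μ.ev_mul ha hp⟩
theorem mulL_spec {a p : ℕ} (hp : Ok p) (ha : Ok a) : Ok (mulL p a) ∧ μ.ev (mulL p a) = μ.ev p * μ.ev a := by
  rw [mulL, bif'_eq]
  split_ifs with h
  · exact ⟨ha, by rw [beq_iff.1 h, μ.ev_one, one_mul]⟩
  · exact ⟨hp.mul ha, μ.ev_mul hp ha⟩
theorem divR_spec {a p : ℕ} (ha : Ok a) (hp : Ok p) : Ok (divR a p) ∧ μ.ev (divR a p) = μ.ev a * (μ.ev p)⁻¹ := by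
  rw [divR, bif'_eq, force_eq]
  split_ifs with h
  · exact ⟨ha, by rw [beq_iff.1 h, μ.ev_one, inv_one, mul_one]⟩
  · exact ⟨ha.mul hp.inv, by rw [μ.ev_mul ha hp.inv, μ.ev_inv hp]⟩
theorem divL_spec {a p : ℕ} (hp : Ok p) (ha : Ok a) : Ok (divL p a) ∧ μ.ev (divL p a) = (μ.ev p)⁻¹ * μ.ev a := by
  rw [divL, bif'_eq, force_eq]
  split_ifs with h
  · exact ⟨ha, by rw [beq_iff.1 h, μ.ev_one, inv_one, one_mul]⟩
  · exact ⟨hp.inv.mul ha, by rw [μ.ev_mul hp.inv ha, μ.ev_inv hp]⟩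

/-- the value of a letter -/
def val (n : ℕ) : Γ := if n < 64 then sy n else μ.ev n
/-- the value of a word -/
def evL (l : List ℕ) : Γ := (l.map (val μ sy)).prod
def Holds (L : Lem) : Prop := GoodS L.1 ∧ GoodS L.2 ∧ evL μ sy (flat L.1) = evL μ sy (flat L.2)
def HW (g : List ℕ × List ℕ) : Prop := Good g.1 ∧ Good g.2 ∧ evL μ sy g.1 = evL μ sy g.2
def Mover (mv : ℕ → ℕ → ℕ) : Prop := ∀ s < 64, ∀ h, Ok h → mv s h ≠ 0 →
  Ok (mv s h) ∧ sy s * μ.ev h = μ.ev (mv s h) * sy s ∧ μ.ev h * sy s = sy s * μ.ev (mv s h)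
/-- the continuation accepts a word with the same value -/
def Res (w : List ℕ) (k : KB) : Prop := ∃ w', Good w' ∧ evL μ sy w' = evL μ sy w ∧ k w' = true

variable {μ sy}

theorem val_ok {n : ℕ} (h : Ok n) : val μ sy n = μ.ev n := if_neg (Nat.not_lt.2 h.ge)
theorem val_sy {n : ℕ} (h : n < 64) : val μ sy n = sy n := if_pos h
@[simp] theorem evL_nil : evL μ sy [] = 1 := rfl
theorem evL_cons (a : ℕ) (l : List ℕ) : evL μ sy (a :: l) = val μ sy a * evL μ sy l := by simp [evL]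
theorem evL_append (l r : List ℕ) : evL μ sy (l ++ r) = evL μ sy l * evL μ sy r := by simp [evL]
theorem evL_ok {a : ℕ} (h : Ok a) (l : List ℕ) : evL μ sy (a :: l) = μ.ev a * evL μ sy l := by
  rw [evL_cons, val_ok h]
theorem evL_sy {a : ℕ} (h : a < 64) (l : List ℕ) : evL μ sy (a :: l) = sy a * evL μ sy l := by
  rw [evL_cons, val_sy h]
theorem evL_flat {s : Side} (h : GoodS s) :
    evL μ sy (flat s) = μ.ev s.1 * (evL μ sy s.2.1 * μ.ev s.2.2) := by
  rw [flat, evL_ok h.1, evL_append, evL_ok h.2.2, evL_nil, mul_one]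

theorem Holds.symm {L : Lem} (h : Holds μ sy L) : Holds μ sy (L.2, L.1) := ⟨h.2.1, h.1, h.2.2.symm⟩

theorem rep_spec {P Q : Side} (hL : Holds μ sy (P, Q)) {w : List ℕ} {k : KB} (hw : Good w)
    (h : rep P Q w k = true) : Res μ sy w k := by
  obtain ⟨a, r, e1, ha, hr, h1⟩ := hb_spec hw h
  clear h
  subst e1
  obtain ⟨r', e0, h0⟩ := strip_spec h1
  clear h1
  subst e0
  obtain ⟨b, post, e0, hb', hp, h⟩ := hb_spec (good_append.1 hr).2 h0
  clear h0
  subst e0
  obtain ⟨gP, gQ, e⟩ := hL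
  rw [evL_flat gP, evL_flat gQ] at e
  dsimp only at gP gQ e
  simp only [force_eq, bif'_eq, appK_eq] at h
  obtain ⟨a1, a2⟩ := divR_spec μ ha gP.1
  obtain ⟨a3, a4⟩ := mulR_spec μ a1 gQ.1
  obtain ⟨b1, b2⟩ := divL_spec μ gP.2.2 hb'
  obtain ⟨b3, b4⟩ := mulL_spec μ gQ.2.2 b1
  have key : evL μ sy (mulR (divR a P.1) Q.1 :: (Q.2.1 ++ mulL Q.2.2 (divL P.2.2 b) :: post)) =
      evL μ sy (a :: (P.2.1 ++ b :: post)) := by
    rw [evL_ok a3, evL_append, evL_ok b3, a4, a2, b4, b2, evL_ok ha, evL_append, evL_ok hb']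
    have : evL μ sy P.2.1 = (μ.ev P.1)⁻¹ * (μ.ev Q.1 * (evL μ sy Q.2.1 * μ.ev Q.2.2)) * (μ.ev P.2.2)⁻¹ := by
      rw [← e]; group
    rw [this]; group
  split_ifs at h with c
  · obtain ⟨c1, c2⟩ := mulR_spec μ a3 b3
    refine ⟨_, hp.cons c1, ?_, h⟩
    rw [← key, isNil_iff.1 c, evL_ok c1, c2, evL_ok a3, List.nil_append, evL_ok b3, mul_assoc]
  · exact ⟨_, (good_append.2 ⟨gQ.2.1, hp.cons b3⟩).cons a3, key, h⟩

variable {mv : ℕ → ℕ → ℕ} (hm : Mover μ sy mv)
include hm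

theorem movL_spec {x : ℕ} (hx : Ok x) {w : List ℕ} {k : KB} (hw : Good w) (h : movL mv x w k = true) :
    Res μ sy w k := by
  obtain ⟨a, r, rfl, ha, hr, h⟩ := hb_spec hw h
  obtain ⟨s, r', rfl, h⟩ := hd_spec h
  obtain ⟨b, post, rfl, hb', hp, h⟩ := hb_spec (good_cons.1 hr).2 h
  simp only [force_eq, band_eq_true, blt'_eq_true, bne'_eq_true] at h
  obtain ⟨m1, m2, -⟩ := hm s h.1 x hx h.2.1
  obtain ⟨a1, a2⟩ := mulR_spec μ ha m1
  obtain ⟨b1, b2⟩ := divL_spec μ hx hb'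
  refine ⟨_, (good_cons.2 ⟨Or.inl h.1, hp.cons b1⟩).cons a1, ?_, h.2.2⟩
  rw [evL_ok a1, evL_sy h.1, evL_ok b1, evL_ok ha, evL_sy h.1, evL_ok hb', a2, b2, mul_assoc,
    ← mul_assoc (μ.ev (mv s x)), ← m2]
  group

theorem movR_spec {x : ℕ} (hx : Ok x) {w : List ℕ} {k : KB} (hw : Good w) (h : movR mv x w k = true) :
    Res μ sy w k := by
  obtain ⟨a, r, rfl, ha, hr, h⟩ := hb_spec hw h
  obtain ⟨s, r', rfl, h⟩ := hd_spec h
  obtain ⟨b, post, rfl, hb', hp, h⟩ := hb_spec (good_cons.1 hr).2 h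
  simp only [force_eq, band_eq_true, blt'_eq_true, bne'_eq_true] at h
  obtain ⟨m1, -, m2⟩ := hm s h.1 x hx h.2.1
  obtain ⟨a1, a2⟩ := divR_spec μ ha hx
  obtain ⟨b1, b2⟩ := mulL_spec μ m1 hb'
  refine ⟨_, (good_cons.2 ⟨Or.inl h.1, hp.cons b1⟩).cons a1, ?_, h.2.2⟩
  rw [evL_ok a1, evL_sy h.1, evL_ok b1, evL_ok ha, evL_sy h.1, evL_ok hb', a2, b2, mul_assoc (μ.ev (mv s x)),
    ← mul_assoc (sy s), ← m2]
  group

theorem apm_spec {L : Lem} (hL : Holds μ sy L) {w : List ℕ} {k : KB} (hw : Good w) (h : apm mv L w k = true) :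
    Res μ sy w k := by
  obtain ⟨a, r, rfl, ha, hr, h⟩ := hb_spec hw h
  obtain ⟨s, r', rfl, h⟩ := hd_spec h
  obtain ⟨b, post, rfl, hb', hp, h⟩ := hb_spec (good_cons.1 hr).2 h
  rw [band_eq_true, blt'_eq_true] at h
  obtain ⟨hs, h⟩ := h
  obtain ⟨s', X, e, h⟩ := hd_spec h
  obtain ⟨y, Y, rfl, hy, -, h⟩ := hb_spec (good_cons.1 (e ▸ hL.1.2.1)).2 h
  simp only [force_eq, band_eq_true, bne'_eq_true] at h
  obtain ⟨x1, x2⟩ := divR_spec μ hb' hy
  obtain ⟨m1, m2, -⟩ := hm s hs _ x1 h.1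
  obtain ⟨a1, a2⟩ := mulR_spec μ ha m1
  obtain ⟨w', g, e', h'⟩ := rep_spec (μ := μ) (sy := sy) hL ((good_cons.2 ⟨Or.inl hs, hp.cons hy⟩).cons a1) h.2
  refine ⟨w', g, e'.trans ?_, h'⟩
  rw [evL_ok a1, evL_sy hs, evL_ok hy, evL_ok ha, evL_sy hs, evL_ok hb', a2, mul_assoc,
    ← mul_assoc (μ.ev (mv s _)), ← m2, x2]
  group

omit hm in
theorem spl_spec {x : ℕ} (hx : Ok x) {w : List ℕ} {k : KB} (hw : Good w) (h : spl x w k = true) :
    Res μ sy w k := by
  obtain ⟨a, r, rfl, ha, hr, h⟩ := hb_spec hw h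
  rw [force_eq] at h
  obtain ⟨a1, a2⟩ := divR_spec μ ha hx
  refine ⟨_, (hr.cons hx).cons a1, ?_, h⟩
  rw [evL_ok a1, evL_ok hx, evL_ok ha, a2]; group

omit hm in
theorem mrg_spec {w : List ℕ} {k : KB} (hw : Good w) (h : mrg w k = true) : Res μ sy w k := by
  obtain ⟨a, r, rfl, ha, hr, h⟩ := hb_spec hw h
  obtain ⟨b, post, rfl, hb', hp, h⟩ := hb_spec hr h
  rw [force_eq] at h
  obtain ⟨a1, a2⟩ := mulR_spec μ ha hb'
  refine ⟨_, hp.cons a1, ?_, h⟩
  rw [evL_ok a1, evL_ok ha, evL_ok hb', a2, mul_assoc]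

variable {T : List Lem} (hT : ∀ L ∈ T, Holds μ sy L)
include hT

theorem opK_spec {o n : ℕ} {w : List ℕ} {k : KB} (hw : Good w) (h : opK mv T o n w k = true) :
    Res μ sy w k := by
  simp only [opK, bif'_eq] at h
  split_ifs at h
  · obtain ⟨L, a, b⟩ := nth_spec h; exact rep_spec (hT L a) hw b
  · obtain ⟨L, a, b⟩ := nth_spec h; exact rep_spec (hT L a).symm hw b
  · obtain ⟨L, a, b⟩ := nth_spec h; exact apm_spec hm (hT L a) hw b
  · rw [band_eq_true] at h; exact movL_spec hm (ok_of_chkD h.1) hw h.2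
  · rw [band_eq_true] at h; exact movR_spec hm (ok_of_chkD h.1) hw h.2
  · rw [band_eq_true] at h; exact spl_spec (ok_of_chkD h.1) hw h.2
  · exact mrg_spec hw h

theorem atP_spec {o n : ℕ} (i : ℕ) {w : List ℕ} {k : KB} (hw : Good w) (h : atP (opK mv T o n) i w k = true) :
    Res μ sy w k := by
  induction i generalizing w k with
  | zero => exact opK_spec hm hT hw h
  | succ i ih =>
    obtain ⟨a, r, rfl, h⟩ := hd_spec h
    obtain ⟨w', g, e, h'⟩ := ih (good_cons.1 hw).2 h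
    exact ⟨a :: w', good_cons.2 ⟨(good_cons.1 hw).1, g⟩, by rw [evL_cons, evL_cons, e], h'⟩

theorem steps_spec (l : List ℕ) {w : List ℕ} {k : KB} (hw : Good w) (h : steps mv T l w k = true) :
    Res μ sy w k := by
  induction l generalizing w with
  | nil => exact ⟨w, hw, rfl, h⟩
  | cons s l ih =>
    have h1 : step mv T s w (fun w' => steps mv T l w' k) = true := h
    simp only [step, force_eq] at h1
    obtain ⟨w', g, e, h'⟩ := atP_spec hm hT _ hw h1
    obtain ⟨w'', g', e', h''⟩ := ih g h'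
    exact ⟨w'', g', e'.trans e, h''⟩

omit hm hT in
theorem toSide_spec {w : List ℕ} {k : Side → Bool} (hw : Good w) (h : toSide w k = true) :
    ∃ S, GoodS S ∧ evL μ sy (flat S) = evL μ sy w ∧ k S = true := by
  obtain ⟨a, r, rfl, ha, hr, h⟩ := hb_spec hw h
  rw [bif'_eq] at h
  split_ifs at h with c
  · have g : GoodS (a, [], pone) := ⟨ha, good_nil, ok_one⟩
    refine ⟨(a, [], pone), g, ?_, h⟩
    rw [isNil_iff.1 c, evL_flat g, evL_ok ha]
    simp [μ.ev_one]
  · obtain ⟨b, r', e0, h0⟩ := hd_spec h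
    clear h
    subst e0
    obtain ⟨l, z, e, h⟩ := lastK_spec h0
    rw [band_eq_true, ble_iff] at h
    rw [e] at hr ⊢
    exact ⟨(a, l, z), ⟨ha, (good_append.1 hr).1,
      ((good_append.1 hr).2 z (by simp)).resolve_left (Nat.not_lt.2 h.1)⟩, rfl, h.2⟩

omit hT in
theorem run_spec (sc : List (List ℕ × List ℕ)) {T : List Lem} (hT : ∀ L ∈ T, Holds μ sy L) {k : List Lem → Bool}
    (h : run mv sc T k = true) : ∃ T', (∀ L ∈ T', Holds μ sy L) ∧ k T' = true := by
  induction sc generalizing T with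
  | nil => exact ⟨T, hT, h⟩
  | cons e sc ih =>
    have h1 : band (chkL e.1) (toSide e.1 fun S => steps mv T e.2 e.1 fun w => toSide w fun S' =>
      run mv sc ((S, S') :: T) k) = true := h
    rw [band_eq_true] at h1
    have g := good_of_chkL h1.1
    obtain ⟨S, s1, s2, h2⟩ := toSide_spec (μ := μ) (sy := sy) g h1.2
    obtain ⟨w, w1, w2, h3⟩ := steps_spec hm hT _ g h2
    obtain ⟨S', t1, t2, h4⟩ := toSide_spec (μ := μ) (sy := sy) w1 h3
    refine ih (fun L hL => ?_) h4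
    rcases List.mem_cons.1 hL with rfl | hL
    · exact ⟨s1, t1, by rw [s2, t2, w2]⟩
    · exact hT L hL

theorem goals_spec (gs : List (List ℕ × List ℕ)) {gc : List (List ℕ)} (h : goals mv T gs gc = true) :
    ∀ g ∈ gs, Good g.1 ∧ Good g.2 ∧ evL μ sy g.1 = evL μ sy g.2 := by
  induction gs generalizing gc with
  | nil => simp
  | cons g gs ih =>
    cases gc with
    | nil => exact absurd h (by simp [goals])
    | cons s r =>
      have h1 : band (band (chkL g.1) (steps mv T s g.1 fun w => strip g.2 w isNil)) (goals mv T gs r) = true := h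
      simp only [band_eq_true] at h1
      intro g' hg
      rcases List.mem_cons.1 hg with rfl | hg
      · have a := good_of_chkL h1.1.1
        obtain ⟨w, w1, w2, h2⟩ := steps_spec hm hT _ a h1.1.2
        obtain ⟨r', rfl, h3⟩ := strip_spec h2
        rw [isNil_iff.1 h3, List.append_nil] at w1 w2
        exact ⟨a, w1, w2.symm⟩
      · exact ih h1.2 g' hg

theorem chkAll_spec {sc gs : List (List ℕ × List ℕ)} {gc : List (List ℕ)} (h : chkAll mv T sc gs gc = true) :
    ∀ g ∈ gs, Good g.1 ∧ Good g.2 ∧ evL μ sy g.1 = evL μ sy g.2 := by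
  obtain ⟨T', a, b⟩ := run_spec hm sc hT h
  exact goals_spec hm a gs b

omit hm hT in
theorem initK_spec {I : List (List ℕ × List ℕ)} (hI : ∀ g ∈ I, HW μ sy g) {k : List Lem → Bool}
    (h : initK I k = true) : ∃ T, (∀ L ∈ T, Holds μ sy L) ∧ k T = true := by
  induction I generalizing k with
  | nil => exact ⟨[], by simp, h⟩
  | cons g I ih =>
    obtain ⟨T, a, b⟩ := ih (fun g' hg => hI g' (List.mem_cons_of_mem _ hg)) (k := fun T => toSide g.1 fun S =>
      toSide g.2 fun S' => k ((S, S') :: T)) h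
    obtain ⟨g1, g2, g3⟩ := hI g (by simp)
    obtain ⟨S, s1, s2, h2⟩ := toSide_spec (μ := μ) (sy := sy) g1 b
    obtain ⟨S', t1, t2, h3⟩ := toSide_spec (μ := μ) (sy := sy) g2 h2
    refine ⟨_, fun L hL => ?_, h3⟩
    rcases List.mem_cons.1 hL with rfl | hL
    · exact ⟨s1, t1, by rw [s2, t2, g3]⟩
    · exact a L hL

omit hT in
theorem chkW_spec {I sc gs : List (List ℕ × List ℕ)} {gc : List (List ℕ)} (hI : ∀ g ∈ I, HW μ sy g)
    (h : chkW mv I sc gs gc = true) : ∀ g ∈ gs, HW μ sy g := by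
  obtain ⟨T, a, b⟩ := initK_spec hI h
  exact chkAll_spec hm a b

end

theorem realizeEqns_J4u_Chk : True := by
  have := @CA.J4u.Side.eq_1
  have := @CA.J4u.Side.eq_def
  have := @CA.J4u.Side.congr_simp
  have := @CA.J4u.mulL.eq_1
  have := @CA.J4u.mulL.eq_def
  have := @CA.J4u.mulL.congr_simp
  have := @CA.J4u.Lem.eq_1
  have := @CA.J4u.Lem.eq_def
  have := @CA.J4u.Lem.congr_simp
  have := @CA.J4u.Mover.eq_1.{0}
  have := @CA.J4u.Mover.eq_def.{0}
  have := @CA.J4u.Mover.congr_simp.{0}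
  have := @CA.J4u.opK.eq_1
  have := @CA.J4u.opK.eq_def
  have := @CA.J4u.opK.congr_simp
  have := @CA.J4u.KB.eq_1
  have := @CA.J4u.KB.eq_def
  have := @CA.J4u.KB.congr_simp
  have := @CA.J4u.evL.eq_1.{0}
  have := @CA.J4u.evL.eq_def.{0}
  have := @CA.J4u.evL.congr_simp.{0}
  have := @CA.J4u.toSide.eq_1
  have := @CA.J4u.toSide.eq_def
  have := @CA.J4u.toSide.congr_simp
  have := @CA.J4u.GoodS.eq_1
  have := @CA.J4u.GoodS.eq_def
  have := @CA.J4u.GoodS.congr_simp
  have := @CA.J4u.initK.eq_1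
  have := @CA.J4u.initK.eq_def
  have := @CA.J4u.initK.congr_simp
  have := @CA.J4u.hd.eq_1
  have := @CA.J4u.hd.eq_def
  have := @CA.J4u.hd.congr_simp
  have := @CA.J4u.goals.eq_1
  have := @CA.J4u.goals.eq_def
  have := @CA.J4u.goals.congr_simp
  have := @CA.J4u.run.eq_1
  have := @CA.J4u.run.eq_def
  have := @CA.J4u.run.congr_simp
  have := @CA.J4u.step.eq_1
  have := @CA.J4u.step.eq_def
  have := @CA.J4u.step.congr_simp
  have := @CA.J4u.Holds.eq_1.{0}
  have := @CA.J4u.Holds.eq_def.{0}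
  have := @CA.J4u.Holds.congr_simp.{0}
  have := @CA.J4u.flat.eq_1
  have := @CA.J4u.flat.eq_def
  have := @CA.J4u.flat.congr_simp
  have := @CA.J4u.strip.eq_1
  have := @CA.J4u.strip.eq_def
  have := @CA.J4u.strip.congr_simp
  have := @CA.J4u.chkD.eq_1
  have := @CA.J4u.chkD.eq_def
  have := @CA.J4u.chkD.congr_simp
  have := @CA.J4u.appK.eq_1
  have := @CA.J4u.appK.eq_def
  have := @CA.J4u.appK.congr_simp
  have := @CA.J4u.Good.eq_1
  have := @CA.J4u.Good.eq_def
  have := @CA.J4u.Good.congr_simp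
  have := @CA.J4u.val.eq_1.{0}
  have := @CA.J4u.val.eq_def.{0}
  have := @CA.J4u.val.congr_simp.{0}
  have := @CA.J4u.mulR.eq_1
  have := @CA.J4u.mulR.eq_def
  have := @CA.J4u.mulR.congr_simp
  have := @CA.J4u.divR.eq_1
  have := @CA.J4u.divR.eq_def
  have := @CA.J4u.divR.congr_simp
  have := @CA.J4u.nth.eq_1
  have := @CA.J4u.nth.eq_def
  have := @CA.J4u.nth.congr_simp
  have := @CA.J4u.HW.eq_1.{0}
  have := @CA.J4u.HW.eq_def.{0}
  have := @CA.J4u.HW.congr_simp.{0}
  have := @CA.J4u.chkW.eq_1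
  have := @CA.J4u.chkW.eq_def
  have := @CA.J4u.chkW.congr_simp
  have := @CA.J4u.steps.eq_1
  have := @CA.J4u.steps.eq_def
  have := @CA.J4u.steps.congr_simp
  have := @CA.J4u.lastK.eq_1
  have := @CA.J4u.lastK.eq_def
  have := @CA.J4u.lastK.congr_simp
  have := @CA.J4u.spl.eq_1
  have := @CA.J4u.spl.eq_def
  have := @CA.J4u.spl.congr_simp
  have := @CA.J4u.chkL.eq_1
  have := @CA.J4u.chkL.eq_def
  have := @CA.J4u.chkL.congr_simp
  have := @CA.J4u.Res.eq_1.{0}
  have := @CA.J4u.Res.eq_def.{0}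
  have := @CA.J4u.Res.congr_simp.{0}
  have := @CA.J4u.movR.eq_1
  have := @CA.J4u.movR.eq_def
  have := @CA.J4u.movR.congr_simp
  have := @CA.J4u.hb.eq_1
  have := @CA.J4u.hb.eq_def
  have := @CA.J4u.hb.congr_simp
  have := @CA.J4u.chkAll.eq_1
  have := @CA.J4u.chkAll.eq_def
  have := @CA.J4u.chkAll.congr_simp
  have := @CA.J4u.atP.eq_1
  have := @CA.J4u.atP.eq_def
  have := @CA.J4u.atP.congr_simp
  have := @CA.J4u.divL.eq_1
  have := @CA.J4u.divL.eq_def
  have := @CA.J4u.divL.congr_simp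
  have := @CA.J4u.apm.eq_1
  have := @CA.J4u.apm.eq_def
  have := @CA.J4u.apm.congr_simp
  have := @CA.J4u.isNil.eq_1
  have := @CA.J4u.isNil.eq_def
  have := @CA.J4u.isNil.congr_simp
  have := @CA.J4u.mrg.eq_1
  have := @CA.J4u.mrg.eq_def
  have := @CA.J4u.mrg.congr_simp
  have := @CA.J4u.rep.eq_1
  have := @CA.J4u.rep.eq_def
  have := @CA.J4u.rep.congr_simp
  have := @CA.J4u.movL.eq_1
  have := @CA.J4u.movL.eq_def
  have := @CA.J4u.movL.congr_simp
  trivial

end CA.J4u
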