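import Cfsg.Agent.J4u.Nu
import Cfsg.Agent.J4u.C1
import Cfsg.Agent.J4u.C2
import Cfsg.Agent.J4u.C3
import Cfsg.Agent.J4u.C4
import Cfsg.Agent.J4u.C5
import Cfsg.Agent.J4u.C6

/-! Seven double cosets cover the group generated by the split extension and the extra involution. -/

set_option autoImplicit false
set_option maxRecDepth 100000

namespace CA.J4u

open CA.M24 CA.J4 Cfsg Equiv
open scoped Pointwise

noncomputable section

def scE : List (List ℕ × List ℕ) := [
  ([pone, nat_lit 0, nat_lit 964593714816261008327593313106998304, nat_lit 0, pone], [nat_lit 992368857887583835991345935660718522405, nat_lit 33, nat_lit 1024]),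
  ([pone, nat_lit 0, nat_lit 6301730227675418019718777280579864608, nat_lit 0, pone], [nat_lit 6452971753139628052192027935313781358629, nat_lit 1057, nat_lit 3072]),
  ([pone, nat_lit 0, pone], [nat_lit 992368857887583835991345935660718522389, nat_lit 2065, nat_lit 1024]),
  ([pone, nat_lit 0, pone], [nat_lit 6452971753139628052192027935313781358613, nat_lit 3089, nat_lit 1024]),
  ([pone, nat_lit 2, pone], [nat_lit 7169, nat_lit 513131674487644451583671014693494503444, nat_lit 7170]),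
  ([pone, nat_lit 0, nat_lit 5775395072834071972939072877514441422, nat_lit 0, pone], [nat_lit 1024, nat_lit 4114, nat_lit 513331449209084627429174481537285476372, nat_lit 8194]),
  ([pone, nat_lit 2, pone], [nat_lit 9217, nat_lit 490735849449220201805522274227129013268, nat_lit 2]),
  ([pone, nat_lit 0, nat_lit 89983453278536239153639315306865859122, nat_lit 2, pone], [nat_lit 1041, nat_lit 7168]),
  ([pone, nat_lit 0, nat_lit 1583589777506428114590309332915184118339, nat_lit 0, pone], [nat_lit 5120, nat_lit 6162, nat_lit 770181454228621354386761988747368211476, nat_lit 11266]),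
  ([pone, nat_lit 2, pone], [nat_lit 12289, nat_lit 2]),
  ([pone, nat_lit 0, nat_lit 93158464301964582396357467284677330468, nat_lit 0, pone], [nat_lit 7168, nat_lit 13330, nat_lit 3089, nat_lit 5137, nat_lit 17, nat_lit 2050])]

def gcE : List (List ℕ) := [
  [nat_lit 4536249589340853519226566213799691718692, nat_lit 18, nat_lit 11266]]

theorem chkE' : chkW mvM (wTT 0 :: wCube m1 pone ::
    ([pone, 0, pr 4 pone, 0, pr 4 pone, 0, pr 4 pone], [kb]) :: defsG) scE [wCube m3 (pr 739 pone)] gcE = true := by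
  decide +kernel

variable {Γ : Type*} [Group Γ] {μ : MH Γ} {t : Γ}

theorem hw_Be {sy : ℕ → Γ} : HW μ sy (wCube m3 (pr 739 pone)) ↔ Be μ (sy 0) := by
  have a : Good (wCube m3 (pr 739 pone)).1 := good_of_chkL (by decide +kernel)
  have b : Good (wCube m3 (pr 739 pone)).2 := good_of_chkL (by decide +kernel)
  simp only [HW, a, b, true_and]
  simp only [wCube, Be, evL_one, evL_0, evL_p m3_in, evL_v (show 739 < 2048 by norm_num), evL_nil, mul_one,
    pow_succ, pow_zero, one_mul, mul_assoc]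

theorem be_of_br (h : RS μ t) (b : Br μ t) : Be μ t := by
  refine (hw_Be (sy := syG μ t)).1 (chkW_spec (moverM h) (fun g hg => ?_) chkE' _ (by simp))
  simp only [List.mem_cons] at hg
  rcases hg with rfl | rfl | rfl | hg
  · exact hw_TT (by norm_num) h.t2
  · exact hw_ga h.toRK
  · refine ⟨good_of_chkL (by decide +kernel), good_of_chkL (by decide +kernel), ?_⟩
    simp only [Br, pow_succ, pow_zero, one_mul, mul_assoc] at b
    simp only [evL_one, evL_0, evL_v (show 4 < 2048 by norm_num), evL_p kb_in, evL_nil, mul_one]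
    exact b
  · exact hw_defsG g hg

/-- the image of the split extension -/
def MH.im (μ : MH Γ) : Subgroup Γ where
  carrier := {g | ∃ e, Ok e ∧ μ.ev e = g}
  one_mem' := ⟨pone, ok_one, μ.ev_one⟩
  mul_mem' := by
    rintro _ _ ⟨a, ha, rfl⟩ ⟨b, hb, rfl⟩
    exact ⟨_, ha.mul hb, μ.ev_mul ha hb⟩
  inv_mem' := by
    rintro _ ⟨a, ha, rfl⟩
    exact ⟨_, ha.inv, μ.ev_inv ha⟩

theorem MH.ev_mem (μ : MH Γ) {e : ℕ} (h : Ok e) : μ.ev e ∈ μ.im := ⟨e, h, rfl⟩
theorem MH.kc_mem (μ : MH Γ) {c : ℕ} (h : InH M24 c) : kc μ.κ c ∈ μ.im := μ.ev_perm h ▸ μ.ev_mem (ok_perm h)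

/-- the representatives -/
def rep7 (μ : MH Γ) (t : Γ) (k : ℕ) : Γ := if k = 0 then 1 else syG μ t k
/-- the union of the seven double cosets -/
def Om (μ : MH Γ) (t g : Γ) : Prop := ∃ k < 7, ∃ a ∈ μ.im, ∃ b ∈ μ.im, g = a * rep7 μ t k * b

theorem Om.left {g m : Γ} (h : Om μ t g) (hm : m ∈ μ.im) : Om μ t (m * g) := by
  obtain ⟨k, hk, a, ha, b, hb, rfl⟩ := h
  exact ⟨k, hk, _, mul_mem hm ha, b, hb, by group⟩
theorem Om.right {g m : Γ} (h : Om μ t g) (hm : m ∈ μ.im) : Om μ t (g * m) := by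
  obtain ⟨k, hk, a, ha, b, hb, rfl⟩ := h
  exact ⟨k, hk, a, ha, _, mul_mem hb hm, by group⟩

def rhsOK : List ℕ → Bool
  | [c] => Nat.ble 64 c
  | [c, k, d] => Nat.ble 64 c && Nat.ble k 6 && Nat.ble 64 d
  | _ => false

theorem om_of_rhs {w : List ℕ} (hw : Good w) (h : rhsOK w = true) : Om μ t (evL μ (syG μ t) w) := by
  unfold rhsOK at h
  split at h
  · have o := (hw _ (by simp)).resolve_left (Nat.not_lt.2 (ble_iff.1 h))
    exact ⟨0, by norm_num, _, μ.ev_mem o, 1, one_mem _, by rw [evL_ok o]; simp [rep7]⟩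
  · rename_i c k d
    simp only [Bool.and_eq_true, ble_iff] at h
    have o := (hw c (by simp)).resolve_left (Nat.not_lt.2 h.1.1)
    have o' := (hw d (by simp)).resolve_left (Nat.not_lt.2 h.2)
    refine ⟨max k 1, by omega, _, μ.ev_mem o, _, μ.ev_mem o', ?_⟩
    rw [evL_ok o, evL_sy (by omega), evL_ok o', evL_nil, mul_one, mul_assoc, rep7, if_neg (by omega)]
    rcases Nat.eq_zero_or_pos k with rfl | c
    · rfl
    · rw [max_eq_left c]
  · exact absurd h (by simp)

theorem trp_in {i : ℕ} (hi : i < 3795) : InH M24 (trp i) :=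
  inM_of_chk (by simpa using bimp_eq_true.1 (allP_zero trp_chk i (by omega)) (blt'_eq_true.2 hi))

theorem rv_lt (i : ℕ) : rv i < 2048 := by
  have a : i &&& 1 ≤ 1 := Nat.and_le_right
  have b : (i &&& 2) <<< 1 ≤ 4 := by rw [Nat.shiftLeft_eq]; have : i &&& 2 ≤ 2 := Nat.and_le_right; omega
  exact Nat.or_lt_two_pow (n := 11) (a.trans_lt (by norm_num)) (b.trans_lt (by norm_num))

theorem ok_rp {i : ℕ} (hi : i < 15180) : Ok (rp i) := by
  rw [rp, force_eq]
  exact ok_pr (rv_lt i) (trp_in (by change i >>> 2 < _; rw [Nat.shiftRight_eq_div_pow]; omega))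

theorem fstL_eq {α : Type} (l : List (ℕ × α)) (k : List ℕ → Bool) : fstL l k = k (l.map Prod.fst) := by
  induction l generalizing k with
  | nil => rfl
  | cons a l ih => exact (force_eq a.1 fun x => fstL l fun r => k (x :: r)).trans (ih _)

theorem exists_trp {p : Perm Pt} (hp : p ∈ gen [x0, y0]) :
    ∃ i < 3795, ∃ h ∈ St ((famC 3).dec TT), ∃ q ∈ M24, code q = trp i ∧ p⁻¹ = h * q := by
  refine gen_induction (fun p => ∃ i < 3795, ∃ h ∈ St ((famC 3).dec TT), ∃ q ∈ M24, code q = trp i ∧ p⁻¹ = h * q)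
    ⟨0, by norm_num, 1, one_mem _, 1, one_mem _, by rw [code_one]; decide +kernel, by simp⟩ ?_ hp
  rintro g p hg ⟨i, hi, h, hh, q, hq, e, e'⟩
  have c := nxt_chk
  rw [force_eq, force_eq] at c
  have c := band_eq_true.1 (bimp_eq_true.1 (allP_zero c i (by omega)) (blt'_eq_true.2 hi))
  have gm : g ∈ M24 := by
    simp only [List.mem_cons, List.not_mem_nil, or_false] at hg
    exact inH_code.1 (hg.elim (fun a => a ▸ x0_in) fun a => a ▸ y0_in)
  obtain ⟨o, c⟩ : ∃ o, nxtChk (pinv (code g)) o i = true := by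
    simp only [List.mem_cons, List.not_mem_nil, or_false] at hg
    exact hg.elim (fun a => ⟨_, a ▸ c.1⟩) fun a => ⟨_, a ▸ c.2⟩
  simp only [nxtChk, force_eq, band_eq_true, blt'_eq_true] at c
  obtain ⟨q', hq', e2⟩ := trp_in c.1
  rw [← e, ← e2, pinv_code, pinv_code, pmul_code, pmul_code] at c
  refine ⟨_, c.1, h * (q * g⁻¹ * q'⁻¹), mul_mem hh (mem_St.2 ⟨mul_mem (mul_mem hq (inv_mem gm)) (inv_mem hq'),
    ((famC 3).smul_dec (by decide +kernel) (by decide +kernel)).2 (beq_iff.1 c.2)⟩), q', hq', e2, ?_⟩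
  rw [mul_inv_rev, e']; group

theorem rv_chk : allP (fun v => anyR (fun e => tb LB (Nat.xor v (rv e))) 4) 11 0 = true := by decide +kernel

theorem RS.cosets (h : RS μ t) {g : Γ} (hg : g ∈ μ.im) :
    ∃ i < 15180, ∃ n, t * n * t ∈ μ.im ∧ g = n * μ.ev (rp i) := by
  obtain ⟨e, ⟨hv, p, hp, e1⟩, rfl⟩ := hg
  obtain ⟨i, hi, k, hk, q, hq, e2, e3⟩ := exists_trp (M24_le_xy (inv_mem hp))
  rw [inv_inv] at e3
  have ki : InH M24 (code k⁻¹) := inH_code.2 (inv_mem hk.1)
  have l := actF_lt ki hv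
  obtain ⟨r, hr, c⟩ := anyR_eq_true.1 (all11 rv_chk l)
  have l2 := xor_lt11 l (rv_lt r)
  have f : fixT (code k) = true :=
    beq_iff.2 (((famC 3).smul_dec (by decide +kernel) (by decide +kernel)).1 hk.2)
  have e4 : rp (4 * i + r) = pr (rv r) (trp i) := by
    have a : (4 * i + r) >>> 2 = i := by rw [Nat.shiftRight_eq_div_pow]; omega
    have b : ∀ j, (4 * i + r) &&& (2 ^ j) = r &&& (2 ^ j) ∨ 2 ≤ j := fun j => by
      by_cases c : 2 ≤ j
      · exact Or.inr c
      · left
        rw [Nat.and_two_pow, Nat.and_two_pow, show 4 * i + r = 2 ^ 2 * i + r by norm_num,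
          Nat.testBit_two_pow_mul_add _ (by omega), if_pos (by omega)]
    rw [rp, force_eq]
    exact congrArg₂ pr (congrArg₂ Nat.lor ((b 0).resolve_right (by omega))
      (congrArg (Nat.shiftLeft · 1) ((b 1).resolve_right (by omega)))) (congrArg trp a)
  refine ⟨4 * i + r, by omega, kc μ.κ (code k) * μ.ν (actF (code k⁻¹) (fs e) ^^^ rv r), ?_, ?_⟩
  · obtain ⟨a1, a2⟩ := h.tau_spec l2 c
    rw [← mul_assoc, (h.comm (inH_code.2 hk.1) f).eq, mul_assoc, mul_assoc, ← mul_assoc t, a2]
    exact mul_mem (μ.kc_mem (inH_code.2 hk.1)) (μ.ev_mem a1)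
  · rw [e4, μ.ev_pr _ (trp_in hi), mul_assoc, ← mul_assoc (μ.ν _), ← μ.xor _ l2 _ (rv_lt r), Nat.xor_assoc,
      Nat.xor_self, Nat.xor_zero, MH.ev, ← e1, e3, ← pmul_code, kc_mul _ (inH_code.2 hk.1) (inH_code.2 hq), e2,
      ← mul_assoc, ← mul_assoc]
    congr 1
    have := μ.kc_ν ki hv
    rw [← pinv_code, kc_inv _ (inH_code.2 hk.1), pinv_code] at this
    calc _ = kc μ.κ (code k) * ((kc μ.κ (code k))⁻¹ * μ.ν (fs e)) * kc μ.κ (code k) := by group
      _ = _ := by rw [this]; group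

theorem RS.same (h : RS μ t) {a b : ℕ} (ha : Ok a) (hb : Ok b) (e : sameC a b = true) {s : Γ}
    (p : Om μ t (t * μ.ev b * s)) : Om μ t (t * μ.ev a * s) := by
  simp only [sameC, force_eq] at e
  obtain ⟨a1, a2⟩ := h.tauE_spec (ha.mul hb.inv) e
  rw [μ.ev_mul ha hb.inv, μ.ev_inv hb] at a2
  have : t * μ.ev a * s = μ.ev (tauE (emul a (einv b))) * (t * μ.ev b * s) := by
    rw [← a2]
    calc _ = t * (μ.ev a * (μ.ev b)⁻¹) * (t * t) * μ.ev b * s := by rw [h.t2]; group
      _ = _ := by group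
  exact this ▸ p.left (μ.ev_mem a1)

theorem RS.cover (h : RS μ t) {s T : ℕ} (hs : s < 64) {gn : List (ℕ × ℕ)} {fc : List (ℕ × List ℕ)}
    (H : ∀ g ∈ gSt s gn fc, HW μ (syG μ t) g) (k1 : gn.all (fun p => Nat.ble 64 p.1 && Nat.ble 64 p.2) = true)
    (k2 : fc.all (fun p => Nat.ble 64 p.1 && rhsOK p.2) = true) (hc : covChk T gn fc = true) {g : Γ} (hg : g ∈ μ.im) :
    Om μ t (t * g * syG μ t s) := by
  rw [covChk, fstL_eq, fstL_eq] at hc
  simp only [List.all_eq_true, Bool.and_eq_true, ble_iff] at k1 k2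
  have G : ∀ x ∈ gn.map Prod.fst, Ok x ∧ ∃ b ∈ μ.im, μ.ev x * syG μ t s = syG μ t s * b := fun x hx => by
    obtain ⟨p, hp, rfl⟩ := List.mem_map.1 hx
    obtain ⟨-, a, e⟩ := H _ (List.mem_append_left _ (List.mem_map_of_mem hp))
    have o := (a p.1 (by simp [gGen])).resolve_left (Nat.not_lt.2 (k1 p hp).1)
    have o' := (a p.2 (by simp [gGen])).resolve_left (Nat.not_lt.2 (k1 p hp).2)
    simp only [gGen, evL_one, evL_sy hs, evL_ok o, evL_ok o', evL_nil, mul_one] at e
    exact ⟨o, _, inv_mem (μ.ev_mem o'), by rw [eq_mul_inv_iff_mul_eq, mul_assoc, ← e]⟩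
  have F : ∀ x ∈ fc.map Prod.fst, Ok x ∧ Om μ t (t * μ.ev x * syG μ t s) := fun x hx => by
    obtain ⟨p, hp, rfl⟩ := List.mem_map.1 hx
    obtain ⟨a, b, e⟩ := H _ (List.mem_append_right _ (List.mem_map_of_mem hp))
    have o := (a p.1 (by simp [gFact])).resolve_left (Nat.not_lt.2 (k2 p hp).1)
    simp only [gFact, evL_one, evL_0, evL_sy hs, evL_ok o, evL_nil, mul_one] at e
    refine ⟨o, ?_⟩
    rw [mul_assoc]
    exact (show t * (μ.ev p.1 * syG μ t s) = _ from e) ▸ om_of_rhs b (k2 p hp).2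
  have P : ∀ d i, i < 15180 → Nat.land (ent T i) 31 = d → Om μ t (t * μ.ev (rp i) * syG μ t s) := fun d => by
    induction d using Nat.strong_induction_on with
    | _ d ih =>
      intro i hi e
      have c := bimp_eq_true.1 (allP_zero hc i (by omega)) (blt'_eq_true.2 hi)
      simp only [idChk, force_eq, bif'_eq] at c
      split_ifs at c
      · rw [band_eq_true, bne'_eq_true] at c
        have m := F _ ((getL_mem _ _ _).resolve_left c.1)
        exact h.same (ok_rp hi) m.1 c.2 m.2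
      · simp only [band_eq_true, blt'_eq_true] at c
        have m : ∀ x, x = pone ∨ x ∈ gn.map Prod.fst → Ok x ∧ ∃ b ∈ μ.im, μ.ev x * syG μ t s = syG μ t s * b := by
          rintro x (rfl | hx)
          · exact ⟨ok_one, 1, one_mem _, by rw [μ.ev_one, one_mul, mul_one]⟩
          · exact G x hx
        obtain ⟨m1, b, hb, m2⟩ := m _ (getL_mem _ _ _)
        have := (h.same ((ok_rp hi).mul m1) (ok_rp c.1) c.2.2 (ih _ (e ▸ c.2.1) _ c.1 rfl)).right (inv_mem hb)
        rwa [μ.ev_mul (ok_rp hi) m1, mul_assoc, mul_assoc, mul_assoc, ← mul_assoc (μ.ev _) (syG μ t s), m2,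
          mul_inv_cancel_right, ← mul_assoc] at this
  obtain ⟨i, hi, n, hn, rfl⟩ := h.cosets hg
  have : t * (n * μ.ev (rp i)) * syG μ t s = t * n * t * (t * μ.ev (rp i) * syG μ t s) := by
    calc _ = t * n * (t * t) * μ.ev (rp i) * syG μ t s := by rw [h.t2]; group
      _ = _ := by group
  exact this ▸ (P _ i hi rfl).left hn

theorem RS.om_t (h : RS μ t) (b : Be μ t) {g : Γ} (hg : Om μ t g) : Om μ t (t * g) := by
  have H := chkW_spec (μ := μ) (sy := syG μ t) (moverM h) (fun g hg => ?_) chkC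
  · have H' : ∀ l ∈ gsC, ∀ g ∈ l, HW μ (syG μ t) g := fun l hl g hg => H g (List.mem_flatten.2 ⟨l, hl, hg⟩)
    simp only [gsC, List.mem_cons, List.not_mem_nil, or_false, forall_eq_or_imp, forall_eq] at H'
    obtain ⟨k, hk, a, ha, c, hc, rfl⟩ := hg
    rw [← mul_assoc, ← mul_assoc]
    refine Om.right ?_ hc
    have e0 : rep7 μ t 0 = 1 := if_pos rfl
    have e1 : rep7 μ t 1 = t := by simp [rep7, syG]
    have e2 : syG μ t 0 = t := by simp [syG]
    have e3 : ∀ k, k ≠ 0 → rep7 μ t k = syG μ t k := fun k hk => if_neg hk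
    obtain ⟨h1, h2, h3, h4, h5, h6⟩ := H'
    have c1 := h.cover (by norm_num) h1 (by decide +kernel) (by decide +kernel) cov1 ha
    have c2 := h.cover (by norm_num) h2 (by decide +kernel) (by decide +kernel) cov2 ha
    have c3 := h.cover (by norm_num) h3 (by decide +kernel) (by decide +kernel) cov3 ha
    have c4 := h.cover (by norm_num) h4 (by decide +kernel) (by decide +kernel) cov4 ha
    have c5 := h.cover (by norm_num) h5 (by decide +kernel) (by decide +kernel) cov5 ha
    have c6 := h.cover (by norm_num) h6 (by decide +kernel) (by decide +kernel) cov6 ha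
    interval_cases k
    · exact ⟨1, by norm_num, 1, one_mem _, a, ha, by rw [e0, e1, one_mul, mul_one]⟩
    · rw [e1]; rwa [e2] at c1
    all_goals rwa [e3 _ (by norm_num)]
  · simp only [List.mem_cons] at hg
    rcases hg with rfl | rfl | rfl | hg
    · exact hw_TT (by norm_num) h.t2
    · exact hw_ga h.toRK
    · exact hw_Be.2 b
    · exact hw_defsG g hg

/-- the elements preserving the union of the double cosets -/
def omS (μ : MH Γ) (t : Γ) : Subgroup Γ where
  carrier := {g | ∀ w, Om μ t (g * w) ↔ Om μ t w}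
  one_mem' := fun w => by rw [one_mul]
  mul_mem' := fun ha hb w => by rw [mul_assoc, ha, hb]
  inv_mem' := fun {a} ha w => by rw [← ha, mul_inv_cancel_left]

theorem im_le_omS : μ.im ≤ omS μ t := fun g hg w =>
  ⟨fun a => by simpa using a.left (inv_mem hg), fun a => a.left hg⟩

theorem RS.t_omS (h : RS μ t) (b : Be μ t) : t ∈ omS μ t := fun w =>
  ⟨fun a => by have := h.om_t b a; rwa [← mul_assoc, h.t2, one_mul] at this, h.om_t b⟩

theorem om_of_omS {g : Γ} (hg : g ∈ omS μ t) : Om μ t g := by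
  have := (hg 1).2 ⟨0, by norm_num, 1, one_mem _, 1, one_mem _, by simp [rep7]⟩
  rwa [mul_one] at this

def spn : List (List ℕ) := [[nat_lit 48743280836546542890139961494315435], [nat_lit 549187281797633628764307416018011146], [nat_lit 48743280836546542890139961494315435, nat_lit 334466418345830509312743037357736644], [nat_lit 549187281797633628764307416018011146, nat_lit 694480386009442765457963749148887431], [nat_lit 916929296566539480487201805803994345], [nat_lit 401889027620143548185503598335498247], [nat_lit 154526027097111528274677686010453478], [nat_lit 582012867857009595623888334321128967], [nat_lit 747825807648293148266927092880644564], [nat_lit 681756042742133407305696192542450153], [nat_lit 279515270677996929392730739126189120]]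
theorem spn_chk : ∀ i < 11, allL chk (spn.getD i []) = true ∧
    (spn.getD i []).foldr (fun c a => actF c 739 ^^^ a) 0 = 2 ^ i := by decide +kernel

/-- two models agreeing on the complement and on one sextet agree -/
theorem MH.ν_ext {μ μ' : MH Γ} (e : μ.κ = μ'.κ) (e' : μ.ν 739 = μ'.ν 739) : ∀ v < 2048, μ.ν v = μ'.ν v := by
  have a : ∀ l : List ℕ, (∀ c ∈ l, InH M24 c) → l.foldr (fun c a => actF c 739 ^^^ a) 0 < 2048 ∧
      μ.ν (l.foldr (fun c a => actF c 739 ^^^ a) 0) = μ'.ν (l.foldr (fun c a => actF c 739 ^^^ a) 0) := fun l hl => by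
    induction l with
    | nil => exact ⟨by simp, by rw [List.foldr_nil, μ.ν_zero, μ'.ν_zero]⟩
    | cons c l ih =>
      obtain ⟨i1, i2⟩ := ih fun c hc => hl c (List.mem_cons_of_mem _ hc)
      have hc := hl c (by simp)
      have l1 := actF_lt hc (show 739 < 2048 by norm_num)
      rw [List.foldr_cons, μ.xor _ l1 _ i1, μ'.xor _ l1 _ i1, i2]
      refine ⟨xor_lt11 l1 i1, congrArg (· * _) (mul_right_cancel (b := kc μ.κ c) ?_)⟩
      rw [← μ.kc_ν hc (by norm_num), e, ← μ'.kc_ν hc (by norm_num), e']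
  refine xor_induction (n := 11) _ (by rw [μ.ν_zero, μ'.ν_zero]) (fun a b ha hb p q => ?_) fun i hi => ?_
  · rw [μ.xor a ha b hb, μ'.xor a ha b hb, p, q]
  · exact (spn_chk i hi).2 ▸ (a _ (inM_of_allL (spn_chk i hi).1)).2

end

theorem realizeEqns_J4u_Cov : True := by
  have := @CA.J4u.rhsOK.eq_1
  have := @CA.J4u.rhsOK.eq_2
  have := @CA.J4u.rhsOK.eq_3
  have := @CA.J4u.rhsOK.eq_def
  have := @CA.J4u.rhsOK.congr_simp
  have := @CA.J4u.gcE.eq_1
  have := @CA.J4u.gcE.eq_def
  have := @CA.J4u.gcE.congr_simp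
  have := @CA.J4u.omS.eq_1.{0}
  have := @CA.J4u.omS.eq_def.{0}
  have := @CA.J4u.omS.congr_simp.{0}
  have := @CA.J4u.spn.eq_1
  have := @CA.J4u.spn.eq_def
  have := @CA.J4u.spn.congr_simp
  have := @CA.J4u.Om.eq_1.{0}
  have := @CA.J4u.Om.eq_def.{0}
  have := @CA.J4u.Om.congr_simp.{0}
  have := @CA.J4u.scE.eq_1
  have := @CA.J4u.scE.eq_def
  have := @CA.J4u.scE.congr_simp
  have := @CA.J4u.MH.im.eq_1.{0}
  have := @CA.J4u.MH.im.eq_def.{0}
  have := @CA.J4u.MH.im.congr_simp.{0}
  have := @CA.J4u.rep7.eq_1.{0}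
  have := @CA.J4u.rep7.eq_def.{0}
  have := @CA.J4u.rep7.congr_simp.{0}
  trivial

end CA.J4u
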