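import Cfsg.Agent.J4.Setup
import Cfsg.Agent.Fi.LargeStruct
import Cfsg.Agent.FG.Aux1
import Cfsg.Prelude.Def_MonsterType

/-! The centraliser `2^(1+12).3.Aut(M22)` gives the Janko-four-type conditions. -/

set_option autoImplicit false
set_option maxRecDepth 100000

namespace CA.J4u

open CA.M24 CA.Fi CA.FG CA.J4 Cfsg Subgroup Equiv
open scoped commutatorElement

noncomputable section

section lin

variable {W : Type*} [AddCommGroup W] {ψ φ ε a : AddMonoid.End W}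

theorem end_mul (φ ψ : AddMonoid.End W) (w : W) : (φ * ψ) w = φ (ψ w) := rfl

theorem comm_ap (h : Commute φ ψ) (w : W) : φ (ψ w) = ψ (φ w) := DFunLike.congr_fun h w

/-- the common fixed points of two endomorphisms -/
def fix2 (ε a : AddMonoid.End W) : AddSubgroup W where
  carrier := {w | ε w = w ∧ a w = w}
  add_mem' := fun h k => ⟨by rw [map_add, h.1, k.1], by rw [map_add, h.2, k.2]⟩
  zero_mem' := ⟨map_zero _, map_zero _⟩
  neg_mem' := fun h => ⟨by rw [map_neg, h.1], by rw [map_neg, h.2]⟩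

theorem big_fix (hc : Nat.card W = 4096) (h3 : ψ ^ 3 = 1) (h7 : φ ^ 7 = 1) (c1 : Commute ψ ε) (c2 : Commute ψ a)
    (c3 : Commute φ ε) (c4 : Commute φ a) (c5 : Commute ε a) (ee : ε * ε = ε) (aa : a * a = a)
    (f1 : ∀ w, ψ w = w → ε w = 0) (f2 : ∀ w, φ w = w → a w = 0) (ne : ε * a ≠ 0) : 64 ≤ Nat.card (fix2 ε a) := by
  have : Finite W := Nat.finite_of_card_ne_zero (by omega)
  have := Fact.mk Nat.prime_three
  have : Fact (Nat.Prime 7) := ⟨by norm_num⟩
  have cl : ∀ {χ : AddMonoid.End W}, Commute χ ε → Commute χ a → ∀ w ∈ (fix2 ε a : Set W), χ w ∈ (fix2 ε a : Set W) :=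
    fun c c' w hw => ⟨by rw [← comm_ap c, hw.1], by rw [← comm_ap c', hw.2]⟩
  have k3 := mt (fun h : _ ∧ _ => exists_fixed ψ h3 _ (cl c1 c2) h.1 h.2) fun ⟨w, hw, w0, e⟩ =>
    w0 (hw.1.symm.trans (f1 w e))
  have k7 := mt (fun h : _ ∧ _ => exists_fixed φ h7 _ (cl c3 c4) h.1 h.2) fun ⟨w, hw, w0, e⟩ =>
    w0 (hw.2.symm.trans (f2 w e))
  obtain ⟨w, hw⟩ : ∃ w, (ε * a) w ≠ 0 := by_contra fun e => ne (AddMonoidHom.ext fun w => by_contra fun e' => e ⟨w, e'⟩)
  have k1 : Nat.card (fix2 ε a) ≠ 1 := fun e => hw (AddSubgroup.mem_bot.1 ((AddSubgroup.eq_bot_of_card_eq _ e).le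
    ⟨DFunLike.congr_fun ee (a w), (comm_ap c5 (a w)).symm.trans (congrArg ε (DFunLike.congr_fun aa w))⟩))
  have := AddSubgroup.card_addSubgroup_dvd_card (fix2 ε a)
  rw [hc] at this
  obtain ⟨k, hk, e⟩ := (Nat.dvd_prime_pow Nat.prime_two (m := 12)).1 this
  change ¬ (Nat.card (fix2 ε a) % 3 ≠ 0 ∧ Nat.card (fix2 ε a) % 3 ≠ 1) at k3
  change ¬ (Nat.card (fix2 ε a) % 7 ≠ 0 ∧ Nat.card (fix2 ε a) % 7 ≠ 1) at k7
  revert k1 k3 k7
  rw [e]
  interval_cases k <;> decide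

theorem lin (h2 : ∀ w : W, w + w = 0) (hc : Nat.card W = 4096) (β : W → W → ZMod 2)
    (b1 : ∀ u v w, β (u + v) w = β u w + β v w) (b2 : ∀ v w, β v w = β w v) (b3 : ∀ v, (∀ w, β v w = 0) → v = 0)
    (h3 : ψ ^ 3 = 1) (h7 : φ ^ 7 = 1) (c : Commute ψ φ) (iψ : ∀ v w, β (ψ v) (ψ w) = β v w)
    (iφ : ∀ v w, β (φ v) (φ w) = β v w) : φ * (ψ + ψ ^ 2) = ψ + ψ ^ 2 ∨ ∀ w, ψ w = w → w = 0 := by
  have : Finite W := Nat.finite_of_card_ne_zero (by omega)
  have two : (2 : AddMonoid.End W) = 0 := AddMonoidHom.ext fun w => by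
    rw [← one_add_one_eq_two]; exact h2 w
  have adj : ∀ {χ : AddMonoid.End W} {n : ℕ}, χ ^ n = 1 → (∀ v w, β (χ v) (χ w) = β v w) → ∀ i j, j + i = n →
      ∀ v w, β ((χ ^ i) v) w = β v ((χ ^ j) w) := fun {χ n} hn i0 i j e v w => by
    have : ∀ n v w, β ((χ ^ n) v) ((χ ^ n) w) = β v w := fun n v w => by
      induction n with
      | zero => rfl
      | succ n ih => rw [pow_succ']; exact (i0 _ _).trans ih
    rw [← this j, ← end_mul, ← pow_add, e, hn]; rfl
  have b4 : ∀ u v w, β w (u + v) = β w u + β w v := fun u v w => by rw [b2, b1, b2 u, b2 v]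
  have b0 : ∀ w, β 0 w = 0 := fun w => by simpa using b1 0 0 w
  set ε := ψ + ψ ^ 2 with hε
  let a := 1 + φ + φ ^ 2 + φ ^ 4
  let b := 1 + φ ^ 3 + φ ^ 5 + φ ^ 6
  have aε : ∀ v w, β (ε v) w = β v (ε w) := fun v w => by
    have h1 := adj h3 iψ 1 2 rfl v w
    have h2 := adj h3 iψ 2 1 rfl v w
    rw [pow_one] at h1 h2
    change β (ψ v + (ψ ^ 2) v) w = β v (ψ w + (ψ ^ 2) w)
    rw [b1, b4, h1, h2, add_comm]
  have ab : ∀ v w, β (a v) w = β v (b w) := fun v w => by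
    have h1 := adj h7 iφ 1 6 rfl v w
    rw [pow_one] at h1
    change β (v + φ v + (φ ^ 2) v + (φ ^ 4) v) w = β v (w + (φ ^ 3) w + (φ ^ 5) w + (φ ^ 6) w)
    rw [b1, b1, b1, b4, b4, b4, h1, adj h7 iφ 2 5 rfl, adj h7 iφ 4 3 rfl]
    abel
  have ca : ∀ {χ}, Commute χ φ → Commute χ a := fun c =>
    (((Commute.one_right _).add_right c).add_right (c.pow_right 2)).add_right (c.pow_right 4)
  have cb : ∀ {χ}, Commute χ φ → Commute χ b := fun c =>
    (((Commute.one_right _).add_right (c.pow_right 3)).add_right (c.pow_right 5)).add_right (c.pow_right 6)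
  have c1 : Commute ψ ε := (Commute.refl ψ).add_right (Commute.self_pow ψ 2)
  have c3 : Commute φ ε := c.symm.add_right (c.symm.pow_right 2)
  have ee : ε * ε = ε := by
    rw [hε]; linear_combination (norm := noncomm_ring) ψ * h3 + ψ ^ 3 * two
  have aa : a * a = a := by
    simp only [a]; linear_combination (norm := noncomm_ring) φ * h7 + (φ + φ ^ 2 + φ ^ 3 + φ ^ 4 + φ ^ 5 + φ ^ 6) * two
  have bb : b * b = b := by
    simp only [b]
    linear_combination (norm := noncomm_ring) (φ ^ 3 + φ ^ 5) * h7 + (φ ^ 3 + φ ^ 5 + φ ^ 6 + φ ^ 8 + φ ^ 9 + φ ^ 11) * two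
  have a0 : a * b = 0 := by
    simp only [a, b]
    linear_combination (norm := noncomm_ring) (1 + 1 + 1 + φ + φ ^ 2 + φ ^ 3) * h7 +
      (1 + 1 + φ + φ ^ 2 + φ ^ 3 + φ ^ 4 + φ ^ 5 + φ ^ 6) * two
  have s1 : (φ - 1) * (a + b) = φ - 1 := by
    simp only [a, b]
    linear_combination (norm := noncomm_ring) h7
  have f1 : ∀ w, ψ w = w → ε w = 0 := fun w e => by
    change ψ w + (ψ ^ 2) w = 0
    rw [pow_two, end_mul, e, e, h2]
  have fp : ∀ w, φ w = w → ∀ n, (φ ^ n) w = w := fun w e n => by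
    induction n with
    | zero => rfl
    | succ n ih => rw [pow_succ, end_mul, e, ih]
  have k1 : ε * a = 0 ↔ ε * b = 0 := ⟨fun e => AddMonoidHom.ext fun w => b3 _ fun v => by
    change β (ε (b w)) v = 0
    rw [b2, ← aε, ← ab, ← comm_ap (ca c3.symm), ← end_mul, e]
    exact b0 w, fun e => AddMonoidHom.ext fun w => b3 _ fun v => by
    change β (ε (a w)) v = 0
    rw [aε, ab, ← comm_ap (cb c3.symm), ← end_mul, e, b2]
    exact b0 w⟩
  by_cases e : ε * a = 0
  · left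
    rw [← sub_eq_zero, show φ * ε - ε = ε * (φ - 1) by rw [c3.eq, mul_sub, mul_one], ← s1,
      ((ca (Commute.refl φ)).add_right (cb (Commute.refl φ))).sub_left (Commute.one_left _), ← mul_assoc, mul_add,
      e, k1.1 e, add_zero, zero_mul]
  right
  have h1 := big_fix hc h3 h7 c1 (ca c) c3 (ca (Commute.refl φ)) (ca c3.symm) ee aa f1 (fun w e => by
    change w + φ w + (φ ^ 2) w + (φ ^ 4) w = 0
    rw [e, fp w e, fp w e, h2, zero_add, h2]) e
  have h4 := big_fix hc h3 h7 c1 (cb c) c3 (cb (Commute.refl φ)) (cb c3.symm) ee bb f1 (fun w e => by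
    change w + (φ ^ 3) w + (φ ^ 5) w + (φ ^ 6) w = 0
    rw [fp w e, fp w e, fp w e, h2, zero_add, h2]) (mt k1.2 e)
  have inj : Function.Injective fun p : fix2 ε a × fix2 ε b => (p.1 : W) + p.2 := fun p q e => by
    have k : ∀ p : fix2 ε a × fix2 ε b, a (p.1 + p.2) = p.1 := fun p => by
      rw [map_add, p.1.2.2, ← p.2.2.2, ← end_mul, a0]; exact add_zero _
    have e1 : p.1 = q.1 := Subtype.ext ((k p).symm.trans ((congrArg a e).trans (k q)))
    exact Prod.ext e1 (Subtype.ext (add_left_cancel (a := (p.1 : W)) (e.trans (by rw [e1]))))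
  intro w hw
  obtain ⟨p, rfl⟩ := (inj.bijective_of_nat_card_le (by rw [Nat.card_prod, hc]; exact Nat.mul_le_mul h1 h4)).2 w
  have := f1 _ hw
  rwa [map_add, p.1.2.1, p.2.2.1] at this

end lin

theorem ring1' {R : Type*} [Ring R] {ψ : R} (two : (2 : R) = 0) (h3 : ψ ^ 3 = 1) :
    ψ * (ψ + ψ ^ 2) + (1 - (ψ + ψ ^ 2)) = ψ := by
  linear_combination (norm := noncomm_ring) h3 + (1 - ψ) * two

theorem ring2' {R : Type*} [Ring R] {a b e : R} (ee : e * e = e) (c : e * b = b * e) :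
    a * b * e + (1 - e) = (a * e + (1 - e)) * (b * e + (1 - e)) := by
  linear_combination (norm := noncomm_ring) -a * c * e - a * b * ee + a * ee + c * e + b * ee - ee

theorem heis_triv {C : Type*} [Group C] {a b u k k' k'' : C} (c : ∀ g, Commute g k) (c' : ∀ g, Commute g k')
    (c'' : ∀ g, Commute g k'') (h1 : a * b = k * (b * a)) (h2 : u * a * u⁻¹ = k' * a) (h3 : u * b * u⁻¹ = k'' * b⁻¹)
    (h4 : Commute b (a ^ 3)) : Commute a b := by
  have e1 : k' * a * (k'' * b⁻¹) = k * (k'' * b⁻¹ * (k' * a)) := by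
    rw [← h2, ← h3, conj_mul, conj_mul, h1, ← mul_assoc, (c u).eq]; group
  rw [(c'' a).mul_mul_mul_comm, (c' b⁻¹).mul_mul_mul_comm, (c' k'').eq, ← mul_assoc k, ← (c _).eq, mul_assoc (k' * k''),
    mul_right_inj] at e1
  have e2 : b⁻¹ * a * b = k * a := by rw [mul_assoc, h1, ← mul_assoc, (c _).eq]; group
  have e3 : k ^ 3 = 1 := by
    have h : b⁻¹ * a ^ 3 * b = (k * a) ^ 3 := by rw [← e2]; simpa using (conj_pow (a := b⁻¹) (b := a) (i := 3)).symm
    rwa [(c a).symm.mul_pow, mul_assoc, ← h4.eq, inv_mul_cancel_left, right_eq_mul] at h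
  rw [eq_mul_inv_of_mul_eq e2, mul_assoc k, ← mul_assoc k, right_eq_mul] at e1
  rw [pow_succ, pow_two, e1, one_mul] at e3
  rwa [e3, one_mul] at h1

theorem perf22 : ⁅Spor.M22, Spor.M22⁆ = Spor.M22 := by
  have k : ∀ {c x y}, band (chk22 x) (band (chk22 y) (Nat.beq (pmul (pmul x y) (pmul (pinv x) (pinv y))) c)) = true →
      InH ⁅Spor.M22, Spor.M22⁆ c := fun {c x y} h => by
    simp only [band_eq_true, beq_iff] at h
    obtain ⟨g, hg, rfl⟩ := in22_of_chk h.1
    obtain ⟨k, hk, rfl⟩ := in22_of_chk h.2.1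
    exact ⟨_, commutator_mem_commutator hg hk, by
      rw [← h.2.2, pinv_code, pinv_code, pmul_code, pmul_code, pmul_code, commutatorElement_def, mul_assoc _ g⁻¹]⟩
  refine le_antisymm (comm_le_of_le le_rfl le_rfl) (M22_le_gen.trans (gen_le fun c hc => ?_))
  simp only [List.mem_cons, List.not_mem_nil, or_false] at hc
  rcases hc with rfl | rfl
  · exact k (x := 972922411457568343067464796801736768) (y := 959776598866762743206390549997201088) (by decide +kernel)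
  · exact k (x := 956981584099844360618427296583465568) (y := 984684929324813737370766286172393504) (by decide +kernel)

def c7 : ℕ := nat_lit 967291423465684267797732285844300224
def c3a : ℕ := nat_lit 978313968888557037353664979296918848
def c3b : ℕ := nat_lit 984793560011293191844112733431893248
def c3u : ℕ := nat_lit 22927063645201832397505835790937431

theorem seven : ∃ x ∈ Spor.M22, x ^ 7 = 1 ∧ ∀ R : Subgroup (Perm Pt), (∀ g ∈ Spor.M22, g * x * g⁻¹ ∈ R) → Spor.M22 ≤ R := by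
  obtain ⟨x, hx, e⟩ := in22_of_chk (c := c7) (by decide +kernel)
  refine ⟨x, hx, code_inj (by rw [← ppow_code, e, code_one]; decide +kernel), fun R hR => ?_⟩
  have k : ∀ {c g k}, band (chk22 g) (band (chk22 k) (Nat.beq (pmul (pmul (pmul g c7) (pinv g))
      (pmul (pmul k c7) (pinv k))) c)) = true → InH R c := fun {c g k} h => by
    simp only [band_eq_true, beq_iff] at h
    obtain ⟨g, hg, rfl⟩ := in22_of_chk h.1
    obtain ⟨k, hk, rfl⟩ := in22_of_chk h.2.1
    exact ⟨_, mul_mem (hR g hg) (hR k hk), by simp only [← h.2.2, ← e, pinv_code, pmul_code]⟩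
  refine M22_le_gen.trans (gen_le fun c hc => ?_)
  simp only [List.mem_cons, List.not_mem_nil, or_false] at hc
  rcases hc with rfl | rfl
  · exact k (g := 984554320399804676744183959252249696) (k := 957260825074427052577338922920091744) (by decide +kernel)
  · exact k (g := 977582335933744787561017423736261920) (k := 979586748915096089673351719633112576) (by decide +kernel)

theorem three : ∃ a ∈ DD, ∃ b ∈ DD, ∃ u ∈ DD, a ^ 3 = 1 ∧ a * b = b * a ∧ u * a = a * u ∧ b * u * b = u ∧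
    Nat.card (zpowers a ⊔ zpowers b : Subgroup (Perm Pt)) = 9 := by
  obtain ⟨a, ha, ea⟩ := inD_of_chk (c := c3a) (by decide +kernel)
  obtain ⟨b, hb, eb⟩ := inD_of_chk (c := c3b) (by decide +kernel)
  obtain ⟨u, hu, eu⟩ := inD_of_chk (c := c3u) (by decide +kernel)
  have := Fact.mk Nat.prime_three
  have a3 : a ^ 3 = 1 := code_inj (by rw [← ppow_code, ea, code_one]; decide +kernel)
  have b3 : b ^ 3 = 1 := code_inj (by rw [← ppow_code, eb, code_one]; decide +kernel)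
  have ab : a * b = b * a := code_inj (by rw [← pmul_code, ← pmul_code, ea, eb]; decide +kernel)
  have ua : u * a = a * u := code_inj (by rw [← pmul_code, ← pmul_code, ea, eu]; decide +kernel)
  have ub : b * u * b = u := code_inj (by rw [← pmul_code, ← pmul_code, eb, eu]; decide +kernel)
  have oa : orderOf a = 3 := orderOf_eq_prime a3 fun e => absurd (e ▸ ea) (by rw [code_one]; decide +kernel)
  have b1 : b ≠ 1 := fun e => absurd (e ▸ eb) (by rw [code_one]; decide +kernel)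
  have ob : orderOf b = 3 := orderOf_eq_prime b3 b1
  refine ⟨a, ha, b, hb, u, hu, a3, ab, ua, ub, ?_⟩
  rw [card_sup_of_inf_eq_bot (.inl (norm_zpowers_of_cent (zpowers_le.2 (mem_centralizer_singleton_iff.2 ab)))),
    Nat.card_zpowers, Nat.card_zpowers, oa, ob]
  rw [inf_comm]
  refine (inf_eq_bot_or_le_of_card_prime (by rw [Nat.card_zpowers, ob]; norm_num) _).resolve_right fun e => b1 ?_
  have h1 : b * u = u * b := mem_centralizer_singleton_iff.1 (zpowers_le.2 (mem_centralizer_singleton_iff.2 ua.symm)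
    (e (mem_zpowers b)))
  rw [h1, mul_assoc, mul_eq_left] at ub
  rwa [pow_succ, pow_two, ub, one_mul] at b3

variable {H : Type*} [Group H] [Finite H]

/-- the centraliser of the involution as an abstract group -/
structure Hy (Q : Subgroup H) (z ρ : H) (π : H →* Perm Pt) : Prop where
  le : LE Q z
  zc : ∀ g, Commute g z
  card : Nat.card Q = 8192
  range : π.range = DD
  ker : π.ker = Q ⊔ zpowers ρ
  ρ3 : orderOf ρ = 3
  hns : ∀ K : Subgroup H, K ⊓ π.ker = Q → K ⊔ π.ker = ⊤ → False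

namespace Hy

variable {Q : Subgroup H} {z ρ : H} {π : H →* Perm Pt} (h : Hy Q z ρ π)
include h

theorem nQ (g : H) : g ∈ 𝒩(Q) := h.le.mem_normalizer (h.zc g)

theorem cardP : Nat.card (zpowers ρ) = 3 := by rw [Nat.card_zpowers, h.ρ3]

theorem ρQ : ρ ∉ Q := fun e => by
  have := orderOf_dvd_card_of_mem e
  rw [h.ρ3, h.card] at this
  norm_num at this

theorem cube : ρ ^ 3 = 1 := h.ρ3 ▸ pow_orderOf_eq_one ρ

theorem mem_ker {x : H} : x ∈ π.ker ↔ ∃ q ∈ Q, ∃ y ∈ zpowers ρ, q * y = x := by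
  rw [h.ker, mem_sup_of_right_le_norm fun g _ => h.nQ g]

theorem frat (g : H) : ∃ q ∈ Q, ∃ n ∈ 𝒩(zpowers ρ), g = q * n := by
  have h1 := card_mul_relIndex (h.ker ▸ le_sup_right : zpowers ρ ≤ π.ker)
  rw [h.ker, card_sup_of_inf_eq_bot (.inr fun g _ => h.nQ g) (by
    rw [inf_comm]
    exact (inf_eq_bot_or_le_of_card_prime (h.cardP ▸ Nat.prime_three) Q).resolve_right fun e => h.ρQ (e (mem_zpowers ρ))),
    h.cardP, h.card, ← h.ker] at h1
  obtain ⟨x, hx, n, hn, rfl⟩ := frattini_arg_mem Nat.prime_three (sylow_mk (h.ker ▸ le_sup_right : zpowers ρ ≤ π.ker)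
    (pGrp_of_card_eq Nat.prime_three h.cardP) (by omega)) (g := g) (by rw [normalizer_eq_top]; trivial)
  obtain ⟨q, hq, y, hy, rfl⟩ := h.mem_ker.1 hx
  exact ⟨q, hq, y * n, mul_mem (le_normalizer hy) hn, mul_assoc _ _ _⟩

theorem πQ {q : H} (hq : q ∈ Q) : π q = 1 := h.ker.ge (mem_sup_left hq)

theorem map_norm : (𝒩(zpowers ρ)).map π = DD := le_antisymm (h.range ▸ map_le_range _ _) fun d hd => by
  obtain ⟨g, rfl⟩ := h.range.ge hd
  obtain ⟨q, hq, n, hn, rfl⟩ := h.frat g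
  exact ⟨n, hn, by rw [map_mul, h.πQ hq, one_mul]⟩

theorem map_L : (𝒞[ρ] ⊓ Spor.M22.comap π).map π = Spor.M22 := by
  refine le_antisymm (map_le_iff_le_comap.2 inf_le_right) fun d hd => ?_
  have h1 : Spor.M22 ≤ (𝒞[ρ]).map π := by
    rw [← perf22, ← cent_zpowers]
    refine (commutator_mono M22_le_DD M22_le_DD).trans ?_
    rw [← h.map_norm, ← map_commutator]
    exact map_mono (der_le_cent_of_cyclic (cyclic_zpowers ρ) le_rfl)
  obtain ⟨c, hc, rfl⟩ := h1 hd
  exact ⟨c, ⟨hc, hd⟩, rfl⟩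

theorem der : ρ ∈ ⁅𝒞[ρ] ⊓ Spor.M22.comap π, 𝒞[ρ] ⊓ Spor.M22.comap π⁆ := by
  have nL : 𝒩(zpowers ρ) ≤ 𝒩(𝒞[ρ] ⊓ Spor.M22.comap π) := norm_inf (cent_zpowers ρ ▸ norm_cent le_rfl)
    fun g _ => mem_norm_of_conjg_le (by
      rintro _ ⟨x, hx, rfl⟩
      change π (g * x * g⁻¹) ∈ Spor.M22
      rw [map_mul, map_mul, map_inv]
      exact conj_mem_of_mem_norm (DD_le_norm (h.range.le ⟨g, rfl⟩)) hx)
  have mL : (⁅𝒞[ρ] ⊓ Spor.M22.comap π, 𝒞[ρ] ⊓ Spor.M22.comap π⁆).map π = Spor.M22 := by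
    rw [map_commutator, h.map_L, perf22]
  have cL : ⁅𝒞[ρ] ⊓ Spor.M22.comap π, 𝒞[ρ] ⊓ Spor.M22.comap π⁆ ≤ 𝒞[ρ] := comm_le_of_le inf_le_left inf_le_left
  replace nL := norm_comm nL nL
  generalize ⁅𝒞[ρ] ⊓ Spor.M22.comap π, 𝒞[ρ] ⊓ Spor.M22.comap π⁆ = L at *
  have hD : ρ ∈ Q ⊔ L := by
    by_contra e
    have : (Q ⊔ L).Normal := normalIn_top.1 ⟨le_top, fun g _ => by
      obtain ⟨q, hq, n, hn, rfl⟩ := h.frat g
      exact mul_mem (le_normalizer (mem_sup_left hq)) (norm_sup (fun g _ => h.nQ g) nL hn)⟩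
    obtain ⟨S, hS⟩ := sylow_exists Nat.prime_two (⊤ : Subgroup H)
    refine h.hns (Q ⊔ L ⊔ S) (le_antisymm (fun x hx => ?_) (le_inf (le_sup_left.trans le_sup_left) fun q => h.πQ)) ?_
    · obtain ⟨q, hq, y, hy, rfl⟩ := h.mem_ker.1 hx.2
      obtain ⟨d, hd, s, hs, e'⟩ := (mem_sup_of_right_le_norm (by rw [normalizer_eq_top]; exact le_top)).1
        ((mul_mem_cancel_left (mem_sup_left (mem_sup_left hq))).1 hx.1)
      have h1 : QuotientGroup.mk' (Q ⊔ L) y = QuotientGroup.mk' (Q ⊔ L) s := by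
        rw [← e', map_mul, show QuotientGroup.mk' (Q ⊔ L) d = 1 from (QuotientGroup.eq_one_iff d).2 hd, one_mul]
      have h2 := ((hS.piGrp.piElt hs).map (QuotientGroup.mk' (Q ⊔ L))).eq_one (h1 ▸ IsPiElt.map (show IsPiElt {2}ᶜ y from
        fun p hp hd e => by
          rw [show p = 2 from e] at hd
          have := hd.trans (orderOf_dvd_card_of_mem hy)
          rw [h.cardP] at this
          omega) _)
      have h3 := ((inf_eq_bot_or_le_of_card_prime (h.cardP ▸ Nat.prime_three) (Q ⊔ L)).resolve_right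
        fun e' => e (e' (mem_zpowers ρ))).le ⟨hy, (QuotientGroup.eq_one_iff y).1 (h1.trans h2)⟩
      rwa [show y = 1 from h3, mul_one]
    · have l1 : Spor.M22 ≤ (Q ⊔ L ⊔ S).map π := mL ▸ map_mono (le_sup_right.trans le_sup_left)
      have l2 := IsSylowOf.not_dvd_index (hS.map π) Nat.prime_two
      have l3 := card_mul_relIndex M22_le_DD
      rw [← MonoidHom.range_eq_map, h.range] at l2
      rw [card_M22, card_DD] at l3
      have l4 := relIndex_dvd_of_le_left DD l1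
      have l5 := relIndex_dvd_of_le_left DD (map_mono (f := π) (le_sup_right (a := Q ⊔ L) (b := S)))
      rw [show Spor.M22.relIndex DD = 2 by omega, Nat.dvd_prime Nat.prime_two] at l4
      rw [eq_top_iff, ← comap_map_eq]
      exact fun g _ => relIndex_eq_one.1 (l4.resolve_right fun e => l2 (e ▸ l5)) (h.range.le ⟨g, rfl⟩)
  obtain ⟨q, hq, l, hl, e⟩ := (mem_sup_of_right_le_norm fun g _ => h.nQ g).1 hD
  have c : Commute q⁻¹ ρ := by
    rw [← eq_mul_inv_iff_mul_eq] at e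
    rw [e]
    exact ((Commute.refl ρ).mul_left (mem_centralizer_singleton_iff.1 (inv_mem (cL hl)))).inv_left
  have := pow_mem hl 4
  rwa [eq_inv_mul_of_mul_eq e, c.mul_pow, inv_pow, h.le.pow_four hq, inv_one, one_mul, pow_succ, h.cube, one_mul] at this

theorem fpf {e : H} (he : e ∈ Q) (c : Commute e ρ) : e = 1 ∨ e = z := by
  have es := h.le.toES
  have am : ∀ m n, acW Q (m * n) = acW Q m * acW Q n := fun m n => acW_mul (h.nQ m) (h.nQ n)
  have ap : ∀ n k, acW Q (n ^ k) = acW Q n ^ k := fun n k => acW_pow (h.nQ n) k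
  have h3 : acW Q ρ ^ 3 = 1 := by rw [← ap, h.cube, acW_one]
  have two : (2 : AddMonoid.End (WW Q)) = 0 := AddMonoidHom.ext fun w => by
    rw [← one_add_one_eq_two]; exact mkW_two es w
  choose s s1 s2 using mkW_surj (E := Q)
  have sb : ∀ x ∈ Q, ∀ y ∈ Q, Bf (s (mkW Q x)) (s (mkW Q y)) = Bf x y := by
    have : ∀ x ∈ Q, ∀ y ∈ Q, Bf (s (mkW Q x)) y = Bf x y := fun x hx y hy => by
      rcases (mkW_eq_iff es (s1 _) hx).1 (s2 _) with e | e <;> rw [e]
      simpa using Bf_z es (x := x) hy 1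
    intro x hx y hy
    rw [this x hx _ (s1 _), Bf_comm, this y hy x hx, Bf_comm]
  have iv : ∀ n v w, (Bf (s (acW Q n v)) (s (acW Q n w)) : ZMod 2) = Bf (s v) (s w) := fun n v w => by
    rw [← s2 v, ← s2 w, acW_mk (h.nQ n) (s1 v), acW_mk (h.nQ n) (s1 w), sb _ (conj_mem_of_mem_norm (h.nQ n) (s1 v)) _
      (conj_mem_of_mem_norm (h.nQ n) (s1 w)), Bf_conj, s2, s2]
  obtain ⟨x0, hx0, x7, hR⟩ := seven
  obtain ⟨x1, hx1, rfl⟩ := h.map_L.ge hx0
  obtain ⟨x, hx, e1, e7⟩ : ∃ x ∈ 𝒞[ρ] ⊓ Spor.M22.comap π, π x = π x1 ∧ x ^ 7 = 1 := by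
    obtain ⟨q, hq, y, hy, e⟩ := h.mem_ker.1 (show x1 ^ 7 ∈ π.ker from (map_pow π x1 7).trans x7)
    have cy : Commute (x1 ^ 7) y := mem_centralizer_singleton_iff.1 (mem_cent_singleton_comm.1
      (zpowers_le.2 (mem_cent_singleton_comm.1 (pow_mem hx1.1 7)) hy))
    have cq : Commute q y := by rw [eq_mul_inv_of_mul_eq e]; exact cy.mul_left (Commute.refl y).inv_left
    have y3 : y ^ 3 = 1 := orderOf_dvd_iff_pow_eq_one.1 (h.cardP ▸ orderOf_dvd_card_of_mem hy)
    refine ⟨x1 ^ 36, pow_mem hx1 _, by rw [map_pow, pow_succ, show 35 = 7 * 5 from rfl, pow_mul, x7, one_pow, one_mul], ?_⟩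
    rw [← pow_mul, mul_comm, pow_mul, ← e, cq.mul_pow, show 36 = 4 * 9 from rfl, pow_mul, es.pow_four hq,
      show 4 * 9 = 3 * 12 from rfl, pow_mul, y3, one_pow, one_pow, one_mul]
  have cm : ∀ g ∈ 𝒞[ρ], Commute (acW Q ρ) (acW Q g) := fun g hg => by
    change _ * _ = _ * _
    rw [← am, ← am, mem_centralizer_singleton_iff.1 hg]
  rcases lin (mkW_two es) (by
      have := card_eq_card_quotient_mul_card_subgroup (commutator Q)
      rw [h.card, comm_eq es, Nat.card_zpowers, ← orderOf_coe, es.orderOf_z, ← comm_eq es] at this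
      change Nat.card (Q ⧸ commutator Q) = 4096
      omega) (fun v w => (Bf (s v) (s w) : ZMod 2)) (fun u v w => by
      rw [← s2 u, ← s2 v, ← mkW_mul (s1 u) (s1 v), ← s2 w, sb _ (mul_mem (s1 u) (s1 v)) _ (s1 w), s2, s2, s2, ← Nat.cast_add]
      exact (ZMod.natCast_eq_natCast_iff' _ _ 2).2 (Bf_mul es (s1 u) (s1 v) (s1 w))) (fun v w => by rw [Bf_comm])
      (fun v hv => by
        rw [← s2 v, mkW_eq_zero es (s1 v)]
        refine es.cen _ (s1 v) fun y hy => by_contra fun e => ?_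
        have := hv (mkW Q y)
        rw [← s2 v, sb _ (s1 v) _ hy, Bf, if_neg e] at this
        exact absurd this (by decide)) h3 (by rw [← ap, e7, acW_one]) (cm x hx.1) (iv ρ) (iv x) with H1 | H1
  swap
  · exact (mkW_eq_zero es he).1 (H1 _ (by rw [acW_mk (h.nQ ρ) he, conj_eq_iff_commute.2 c.symm]))
  exfalso
  generalize hψ : acW Q ρ = ψ at *
  have ee : (ψ + ψ ^ 2) * (ψ + ψ ^ 2) = ψ + ψ ^ 2 := by
    linear_combination (norm := noncomm_ring) ψ * h3 + ψ ^ 3 * two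
  have eψ := ring1' two h3
  have cε : ∀ g ∈ 𝒞[ρ], Commute (ψ + ψ ^ 2) (acW Q g) := fun g hg => (cm g hg).add_left ((cm g hg).pow_left 2)
  generalize ψ + ψ ^ 2 = ε at *
  let θ : ↥(𝒞[ρ] ⊓ Spor.M22.comap π) →* (AddMonoid.End (WW Q))ˣ := MonoidHom.toHomUnits
    { toFun := fun g => acW Q g * ε + (1 - ε)
      map_one' := by simp [acW_one]
      map_mul' := fun a b => by rw [coe_mul, am]; exact ring2' ee (cε b b.2.1).eq }
  have hθ : ∀ g, (θ g).1 = acW Q g * ε + (1 - ε) := fun _ => rfl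
  have ρL : ρ ∈ 𝒞[ρ] ⊓ Spor.M22.comap π := comm_le_of_le le_rfl le_rfl h.der
  have θρ : (θ ⟨ρ, ρL⟩).1 = ψ := by rw [hθ, hψ, eψ]
  have θx : θ ⟨x, hx⟩ = 1 := Units.ext (by rw [hθ, H1]; simp)
  have key : ∀ g, θ g ∈ zpowers (θ ⟨ρ, ρL⟩) := fun g => by
    obtain ⟨_, ⟨m, hm, rfl⟩, e⟩ := hR ((((zpowers (θ ⟨ρ, ρL⟩)).comap θ).map (Subgroup.subtype _)).map π) (fun d hd => by
      obtain ⟨g, hg, rfl⟩ := h.map_L.ge hd
      exact ⟨_, ⟨⟨g, hg⟩ * ⟨x, hx⟩ * ⟨g, hg⟩⁻¹, by
        rw [SetLike.mem_coe, mem_comap, map_mul, map_mul, θx, map_inv, mul_one, mul_inv_cancel]; exact one_mem _, rfl⟩,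
        by simp [e1]⟩) g.2.2
    obtain ⟨q, hq, y, hy, e'⟩ := h.mem_ker.1 (show ((m⁻¹ * g : ↥(𝒞[ρ] ⊓ Spor.M22.comap π)) : H) ∈ π.ker by
      simpa [inv_mul_eq_one] using e)
    have yL := zpowers_le.2 ρL hy
    have qL : q ∈ 𝒞[ρ] ⊓ Spor.M22.comap π := (mul_mem_cancel_right yL).1 (e' ▸ (m⁻¹ * g).2)
    have h1 : θ ⟨q, qL⟩ = 1 := Units.ext (by
      rw [hθ, show acW Q q = 1 from acW_ext fun g hg => (acW_mk (h.nQ q) hg).trans
        ((mkW_eq_iff es (conj_mem_of_mem_norm (h.nQ q) hg) hg).2 (es.conj_or hq hg))]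
      simp)
    rw [← mul_inv_cancel_left m g, show m⁻¹ * g = ⟨q, qL⟩ * ⟨y, yL⟩ from Subtype.ext e'.symm, map_mul, map_mul, h1, one_mul]
    obtain ⟨i, rfl⟩ := hy
    exact mul_mem hm ⟨i, (map_zpow θ _ i).symm⟩
  have h1 : θ ⟨ρ, ρL⟩ = 1 := by
    have : commutator ↥(𝒞[ρ] ⊓ Spor.M22.comap π) ≤ θ.ker := commutator_le.2 fun a _ b _ => by
      obtain ⟨i, hi⟩ := key a
      obtain ⟨j, hj⟩ := key b
      rw [MonoidHom.mem_ker, map_commutatorElement, commutatorElement_eq_one_iff_commute, ← hi, ← hj]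
      exact Commute.zpow_zpow_self _ i j
    have h2 := h.der
    rw [← map_subtype_commutator] at h2
    obtain ⟨r, hr, e⟩ := h2
    exact this ((Subtype.ext e : r = ⟨ρ, ρL⟩) ▸ hr)
  rw [h1, ← hψ] at θρ
  exact h.ρQ (h.le.mem_of_triv (h.zc ρ) fun x hx => (mkW_eq_iff es (conj_mem_of_mem_norm (h.nQ ρ) hx) hx).1
    (by rw [← acW_mk (h.nQ ρ) hx, ← θρ]; rfl))

theorem inv : 𝒩(zpowers ρ) ≠ 𝒞(zpowers ρ) := fun e => by
  rw [cent_zpowers] at e
  have mp := h.map_norm
  rw [e] at mp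
  have kc : ∀ k ∈ 𝒞[ρ], π k = 1 → ∀ g ∈ 𝒞[ρ], Commute g k := fun k hk e => by
    obtain ⟨q, hq, y, hy, rfl⟩ := h.mem_ker.1 e
    have cy : ∀ g ∈ 𝒞[ρ], Commute g y := fun g hg => (mem_centralizer_singleton_iff.1
      (zpowers_le.2 (mem_cent_singleton_comm.1 hg) hy)).symm
    rcases h.fpf hq (mem_centralizer_singleton_iff.1 ((mul_mem_cancel_right (zpowers_le.2
      (mem_centralizer_singleton_iff.2 rfl) hy)).1 hk)) with rfl | rfl
    · simpa using cy
    · exact fun g hg => (h.zc g).mul_right (cy g hg)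
  obtain ⟨_, ha, _, hb, _, hu, a3, ab, ua, ub, c9⟩ := three
  let f : 𝒞[ρ] →* Perm Pt := π.comp (Subgroup.subtype _)
  have rf : f.range = DD := by rw [MonoidHom.range_comp, range_subtype, mp]
  obtain ⟨a, rfl⟩ := rf.ge ha
  obtain ⟨b, rfl⟩ := rf.ge hb
  obtain ⟨u, rfl⟩ := rf.ge hu
  have kc' : ∀ k, f k = 1 → ∀ g, Commute g k := fun k e g => Subtype.ext (kc k k.2 e g g.2)
  have cab : Commute a b := heis_triv (u := u) (kc' (a * b * (b * a)⁻¹) (by simp only [map_mul, map_inv, ab, mul_inv_cancel]))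
    (kc' (u * a * u⁻¹ * a⁻¹) (by simp only [map_mul, map_inv, ua, mul_inv_cancel_right, mul_inv_cancel]))
    (kc' (u * b * u⁻¹ * b) (by
      simp only [map_mul, map_inv]
      rw [show f u * f b = (f b)⁻¹ * f u by rw [eq_inv_mul_iff_mul_eq, ← mul_assoc, ub]]; group)) (by group) (by group) (by group) (kc' _ (by rw [map_pow, a3]) b)
  let A := (zpowers (f a) ⊔ zpowers (f b)).comap f
  have cA : IsMulCommutative A := by
    have : A = (zpowers a ⊔ zpowers b) ⊔ f.ker := by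
      rw [← comap_map_eq, Subgroup.map_sup, MonoidHom.map_zpowers, MonoidHom.map_zpowers]
    rw [this]
    exact abelian_sup (abelian_sup (abelian_of_cyclic (cyclic_zpowers a)) (abelian_of_cyclic (cyclic_zpowers b))
      (by rw [cent_zpowers]; exact zpowers_le.2 (mem_centralizer_singleton_iff.2 cab)))
      ⟨⟨fun x y => Subtype.ext (kc' _ y.2 _)⟩⟩ fun x _ y hy => (kc' y hy x).symm
  have iA : A.index = 98560 := by
    have := card_mul_relIndex (sup_le (zpowers_le.2 ha) (zpowers_le.2 hb))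
    rw [c9, card_DD] at this
    rw [index_comap, rf]
    omega
  let r : 𝒞[ρ] := ⟨ρ, mem_centralizer_singleton_iff.2 rfl⟩
  have cr : ∀ g, Commute g r := fun g => Subtype.ext (mem_centralizer_singleton_iff.1 g.2)
  have h1 := MonoidHom.transfer_eq_pow (Abelianization.of : A →* _) r fun k g _ => by
    rw [mul_assoc, ← ((cr g).pow_right k).eq, inv_mul_cancel_left]
  have h2 := commutator_mono inf_le_left inf_le_left h.der
  rw [← map_subtype_commutator] at h2
  obtain ⟨r', hr, e⟩ := h2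
  obtain rfl : r' = r := Subtype.ext e
  have h3 : r ^ A.index = 1 := congrArg Subtype.val (((commutator_eq_bot_iff_center_eq_top _).2 (by
    rw [eq_top_iff]; exact fun x _ => mem_center_iff.2 fun y => cA.is_comm.comm y x)).le
      ((QuotientGroup.eq_one_iff _).1 (h1.symm.trans (Abelianization.commutator_subset_ker _ hr))))
  have h4 := orderOf_dvd_of_pow_eq_one (show ρ ^ A.index = 1 from congrArg Subtype.val h3)
  rw [h.ρ3, iA] at h4
  omega

end Hy

theorem hyp_type {G : Type*} [Group G] [Finite G] (τ : G) (Q N : Subgroup (centralizer ({τ} : Set G))) [N.Normal]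
    (hS : IsExtraspecialCentralizerSetting τ Q 6) (hQN : Q ≤ N) (hN3 : Nat.card N = 3 * Nat.card Q)
    (hns : ∀ K : Subgroup (centralizer ({τ} : Set G)), K ⊓ N = Q → K ⊔ N = ⊤ → False)
    (hAut : Nonempty (centralizer ({τ} : Set G) ⧸ N ≃* MulAut Spor.M22)) : IsOfJankoFourTypeAt τ := by
  obtain ⟨h1, h2, h3, h4, -⟩ := hS
  obtain ⟨φ⟩ := hAut
  have inj := (centralizer ({τ} : Set G)).subtype_injective
  let z : 𝒞[τ] := ⟨τ, mem_centralizer_singleton_iff.2 rfl⟩
  have zc : ∀ g, Commute g z := fun g => Subtype.ext (mem_centralizer_singleton_iff.1 g.2)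
  obtain ⟨z', es⟩ := exists_ES h3
  have le := LE_of_Fstar h1 (congrArg (map _) h2) (es.map _ fun x _ e => inj (e.trans (map_one _).symm)).isExtraspecial
  have eQ : twoCoreOfCentralizer τ = Q.map (Subgroup.subtype _) := (eq_Op_of_Fstar (congrArg (map _) h2) le.isPGroup).symm
  have mQ : ∀ x : 𝒞[τ], x ∈ Q ↔ (x : G) ∈ Q.map (Subgroup.subtype _) := fun x => (mem_map_iff_mem inj).symm
  have le' : LE Q z := ⟨ES.of_map inj le.toES, fun c hc => (mQ c).2 (le.cent c (by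
    rintro _ ⟨x, hx, rfl⟩; exact (hc x hx).map (Subgroup.subtype _))), fun c _ x hx => (mQ _).2
      (le.norm c (mem_centralizer_singleton_iff.1 c.2) x ((mQ x).1 hx))⟩
  have := Fact.mk Nat.prime_three
  obtain ⟨⟨ρ, ρN⟩, r3⟩ := exists_prime_orderOf_dvd_card' (G := N) 3 (hN3 ▸ Dvd.intro _ rfl)
  rw [← orderOf_coe] at r3
  let π := DD.subtype.comp ((autM22.symm.toMonoidHom.comp φ.toMonoidHom).comp (QuotientGroup.mk' N))
  have k0 : π.ker = N := by
    ext g
    simp only [π, MonoidHom.mem_ker, MonoidHom.comp_apply, MulEquiv.coe_toMonoidHom, EmbeddingLike.map_eq_one_iff,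
      QuotientGroup.mk'_apply, QuotientGroup.eq_one_iff, coe_subtype, OneMemClass.coe_eq_one]
  have h : Hy Q z ρ π := ⟨le', zc, h4, by
    rw [MonoidHom.range_comp, MonoidHom.range_eq_top.2 ((autM22.symm.surjective.comp φ.surjective).comp
      (QuotientGroup.mk'_surjective _)), ← MonoidHom.range_eq_map, range_subtype], by
    refine k0.trans (eq_of_le_of_card_ge (sup_le hQN (zpowers_le.2 ρN)) ?_).symm
    rw [card_sup_of_inf_eq_bot (.inr fun g _ => le'.mem_normalizer (zc g)), Nat.card_zpowers, r3, hN3, mul_comm]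
    refine inf_eq_bot_of_cop ?_
    rw [Nat.card_zpowers, r3, h4]
    norm_num, r3, k0 ▸ hns⟩
  have cρ : (𝒞[ρ]).map (Subgroup.subtype _) = 𝒞[τ] ⊓ 𝒞(zpowers (ρ : G)) := by
    rw [cent_zpowers]
    refine le_antisymm ?_ fun x hx => ⟨⟨x, hx.1⟩, mem_centralizer_singleton_iff.2
      (Subtype.ext (mem_centralizer_singleton_iff.1 hx.2)), rfl⟩
    rintro _ ⟨x, hx, rfl⟩
    exact ⟨x.2, mem_centralizer_singleton_iff.2 (congrArg Subtype.val (mem_centralizer_singleton_iff.1 hx))⟩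
  have sN : (N.map (Subgroup.subtype _)).subgroupOf 𝒞[τ] = N := comap_map_eq_self_of_injective inj N
  have : ((N.map (Subgroup.subtype _)).subgroupOf 𝒞[τ]).Normal := sN.symm ▸ inferInstance
  refine ⟨zpowers (ρ : G), h1, eQ ▸ le.isExtraspecial, by rw [eQ, card_map_of_injective inj, h4], ?_,
    ⟨N.map (Subgroup.subtype _), eQ ▸ map_mono hQN, map_subtype_le N, (normalIn_map_subtype N).2,
      by rw [eQ, card_map_of_injective inj, card_map_of_injective inj, hN3], ⟨this,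
        ⟨(QuotientGroup.quotientMulEquivOfEq sN).trans φ⟩⟩, zpowers_le.2 ⟨ρ, ρN, rfl⟩⟩,
    by rw [Nat.card_zpowers, orderOf_coe, r3], ?_, fun e => h.inv (le_antisymm (fun n hn => ?_) (cent_le_norm _)), ?_⟩
  · rw [eQ]
    exact fun c hc => le.cent c (mem_cent_subgroup_iff.1 hc.2)
  · rw [eQ, cent_zpowers]
    refine le_antisymm ?_ (le_inf le.zpowers_le (zpowers_le.2 (mem_cent_singleton_comm.1 ρ.2)))
    rintro _ ⟨⟨x, hx, rfl⟩, c⟩
    rcases h.fpf hx (Subtype.ext (mem_centralizer_singleton_iff.1 c)) with rfl | rfl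
    exacts [one_mem _, mem_zpowers _]
  · rw [cent_zpowers]
    refine (mem_map_iff_mem inj).1 (cρ.ge (e.le ⟨n.2, ?_⟩))
    rw [show zpowers (ρ : G) = (zpowers ρ).map (Subgroup.subtype _) from (MonoidHom.map_zpowers (Subgroup.subtype _) ρ).symm]
    exact le_normalizer_map _ ⟨n, hn, rfl⟩
  · rw [← cρ, ← map_commutator]
    exact zpowers_le.2 ⟨ρ, commutator_mono inf_le_left inf_le_left h.der, rfl⟩

end

end CA.J4u

theorem CA.realizeEqns_J4u_Hyp : True := by
  have := @CA.J4u.c3a.eq_1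
  have := @CA.J4u.c3a.eq_def
  have := @CA.J4u.c3a.congr_simp
  have := @CA.J4u.c7.eq_1
  have := @CA.J4u.c7.eq_def
  have := @CA.J4u.c7.congr_simp
  have := @CA.J4u.c3u.eq_1
  have := @CA.J4u.c3u.eq_def
  have := @CA.J4u.c3u.congr_simp
  have := @CA.J4u.c3b.eq_1
  have := @CA.J4u.c3b.eq_def
  have := @CA.J4u.c3b.congr_simp
  have := @CA.J4u.fix2.eq_1.{0}
  have := @CA.J4u.fix2.eq_def.{0}
  have := @CA.J4u.fix2.congr_simp.{0}
  trivial
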