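import Cfsg.Agent.J4u.Cov
import Cfsg.Agent.J4p.Pres
import Cfsg.Agent.J4q.Ex
import Cfsg.Agent.J4r.Cnt

/-! A group of Janko-four type is the presented group. -/

set_option autoImplicit false
set_option maxRecDepth 100000

namespace CA.J4u

open CA.M24 CA.J4 CA.FG Cfsg Equiv Subgroup
open scoped Pointwise

noncomputable section

theorem chkF : chkW mvM [wTT 0, ([pone, 0, J4q.aH, 0, pone], [emul J4q.z1 (einv J4q.cH), 0, einv J4q.dH])] []
    [wCube m3 (pr 739 pone)] [[nat_lit 199992470754413725340690338694249916436, nat_lit 1026, nat_lit 2]] = true := by decide +kernel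

theorem be_of_tri {Γ : Type*} [Group Γ] {μ : MH Γ} {t : Γ} (h : RS μ t)
    (T : J4q.Tri μ t J4q.aH (emul J4q.z1 (einv J4q.cH)) (einv J4q.dH)) : Be μ t := by
  refine (hw_Be (sy := fun _ => t)).1 (chkW_spec (moverM h) (fun g hg => ?_) chkF _ (by simp))
  simp only [List.mem_cons, List.not_mem_nil, or_false] at hg
  rcases hg with rfl | rfl
  · exact hw_TT (by norm_num) h.t2
  · refine ⟨good_of_chkL (by decide +kernel), good_of_chkL (by decide +kernel), ?_⟩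
    simp only [evL_one, evL_0, evL_ok T.oa, evL_ok T.ob, evL_ok T.oc, evL_nil, mul_one, ← mul_assoc]
    exact T.eq

theorem exists_J4 : ∃ μ : MH Spor.J4, kc μ.κ x0 = jx ∧ kc μ.κ y0 = jy ∧ RS μ jt ∧ Be μ jt := by
  obtain ⟨⟨h1, h2, h3, h4, h5, h6, h7⟩, h⟩ := rel_J4
  obtain ⟨κ, a, b⟩ := J4p.m24_pres jx jy h1 h2 h3 h4 h5 h6 h7
  have a' : kc κ x0 = jx := by rw [← a, ← kc_code, J4p.code_x0]; rfl
  have b' : kc κ y0 = jy := by rw [← b, ← kc_code, J4p.code_y0]; rfl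
  obtain ⟨c, d⟩ := (rel5_iff ⟨x0_in, a'⟩ ⟨y0_in, b'⟩).1 h
  obtain ⟨μ, rfl, e, f⟩ := c.exists_MH d
  exact ⟨μ, a', b', e, f⟩

/-- the image of a model -/
def MH.map {Γ Γ' : Type*} [Group Γ] [Group Γ'] (μ : MH Γ) (φ : Γ →* Γ') : MH Γ' :=
  ⟨fun v => φ (μ.ν v), φ.comp μ.κ, fun a ha b hb => by rw [μ.xor a ha b hb, map_mul],
    fun p a ha => by rw [← μ.cj p a ha, map_mul, map_mul, map_inv]; rfl⟩

theorem kc_comp {Γ Γ' : Type*} [Group Γ] [Group Γ'] (κ : M24 →* Γ) (φ : Γ →* Γ') {c : ℕ} (hc : InH M24 c) :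
    kc (φ.comp κ) c = φ (kc κ c) := by
  obtain ⟨p, hp, rfl⟩ := hc
  rw [kc_code _ ⟨p, hp⟩, kc_code _ ⟨p, hp⟩]; rfl

theorem sub7 : ∀ I : Finset (Fin 7), (∑ i ∈ I, ![1, 15180, 28336, 3400320, 32643072, 54405120, 82575360] i) ∣ 173067389 →
    I = {0} ∨ I = Finset.univ := by decide +kernel

variable {G : Type*} [Group G] [Finite G]

/-- a subgroup containing `N` is a union of orbits -/
theorem eq_top_of_rank {N H : Subgroup G} (hN : N ≤ H) (hi : N.index = 173067389) (c : Fin 7 → G ⧸ N)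
    (c1 : ∀ i j, i ≠ j → MulAction.orbit N (c i) ≠ MulAction.orbit N (c j))
    (c2 : ∀ q, ∃ i, q ∈ MulAction.orbit N (c i))
    (c3 : ∀ i, (MulAction.orbit N (c i)).ncard = ![1, 15180, 28336, 3400320, 32643072, 54405120, 82575360] i)
    {t : G} (ht : t ∈ H) (hn : t ∉ N) : H = ⊤ := by
  classical
  let A := MulAction.orbit H ((1 : G) : G ⧸ N)
  let I : Finset (Fin 7) := Finset.univ.filter fun i => c i ∈ A
  have cl : ∀ q ∈ A, ∀ n : N, n • q ∈ A := by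
    rintro _ ⟨h, rfl⟩ n
    exact ⟨⟨n, hN n.2⟩ * h, mul_smul _ _ _⟩
  have mI : ∀ q i, q ∈ MulAction.orbit N (c i) → (q ∈ A ↔ i ∈ I) := by
    rintro _ i ⟨n, rfl⟩
    simp only [I, Finset.mem_filter, Finset.mem_univ, true_and]
    exact ⟨fun a => by simpa using cl _ a n⁻¹, fun a => cl _ a n⟩
  have e : A = ⋃ i ∈ I, MulAction.orbit N (c i) := by
    ext q
    obtain ⟨i, hq⟩ := c2 q
    simp only [Set.mem_iUnion]
    exact ⟨fun a => ⟨i, (mI q i hq).1 a, hq⟩, fun ⟨j, a, b⟩ => (mI q j b).2 a⟩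
  have e2 : A.ncard = ∑ i ∈ I, ![1, 15180, 28336, 3400320, 32643072, 54405120, 82575360] i := by
    have := I.finite_toSet.ncard_biUnion (s := fun i => MulAction.orbit N (c i)) (fun _ _ => Set.toFinite _)
      fun i _ j _ h => orbit_disj (c1 i j h)
    rw [finsum_mem_coe_finset] at this
    exact (congrArg _ e).trans (this.trans (Finset.sum_congr rfl fun i _ => c3 i))
  have e3 := ncard_orbit N H 1
  rw [conjg_one, inf_eq_right.2 hN] at e3
  have e4 : A.ncard ∣ 173067389 := by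
    have := H.card_subgroup_dvd_card
    rw [← e3, ← N.index_mul_card, hi] at this
    exact Nat.dvd_of_mul_dvd_mul_right Nat.card_pos this
  rcases sub7 I (e2 ▸ e4) with h | h
  · have : A.ncard = 1 := by rw [e2, h]; rfl
    obtain ⟨q, hq⟩ := Set.ncard_eq_one.1 this
    have a : ((1 : G) : G ⧸ N) ∈ A := MulAction.mem_orbit_self _
    have b : (t : G ⧸ N) ∈ A := ⟨⟨t, ht⟩, congrArg QuotientGroup.mk (mul_one t)⟩
    rw [hq] at a b
    exact absurd (by simpa using QuotientGroup.eq.1 (a.trans b.symm)) hn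
  · have : A.ncard = 173067389 := by rw [e2, h]; rfl
    refine (Subgroup.card_eq_iff_eq_top H).1 ?_
    rw [← e3, ← N.index_mul_card, hi, ← this]

/-- a group of Janko-four type is the presented group -/
theorem exists_iso (X : HM G) [Fact X.Fu] : ∃ e : Spor.J4 ≃* G, e jx = kc (J4q.mu X).κ x0 ∧
    e jy = kc (J4q.mu X).κ y0 ∧ J4q.T3 X (e jt) := by
  obtain ⟨φ, px, py, pt', -⟩ := J4q.exists_phi X
  obtain ⟨μ, a, b, rs, be⟩ := exists_J4
  have rs' : RS (J4q.mu X) (φ jt) := ⟨pt'.s0.rk (J4q.amb X), pt'.s0.tv⟩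
  have be' := be_of_tri rs' (pt'.s0.triH (J4q.amb X))
  have eκ : (μ.map φ).κ = (J4q.mu X).κ := by
    refine MonoidHom.eq_of_eqOn_dense J4p.closure_xy ?_
    rintro _ (rfl | rfl)
    · rw [← kc_code, ← kc_code, J4p.code_x0]
      exact (kc_comp _ _ x0_in).trans (a ▸ px)
    · rw [← kc_code, ← kc_code, J4p.code_y0]
      exact (kc_comp _ _ y0_in).trans (b ▸ py)
  have ek : ∀ c, InH M24 c → φ (kc μ.κ c) = kc (J4q.mu X).κ c := fun c hc => eκ ▸ (kc_comp _ _ hc).symm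
  have eν := MH.ν_ext eκ (by
    change φ (μ.ν 739) = _
    rw [← show _ = μ.ν 739 from be, ← show _ = (J4q.mu X).ν 739 from be', map_pow, map_mul, ek _ m3_in])
  have ee : ∀ e, Ok e → φ (μ.ev e) = (J4q.mu X).ev e := fun e he => by
    rw [MH.ev, MH.ev, map_mul, ek _ he.2, ← eν _ he.1]; rfl
  have eN : ∀ g, g ∈ 𝒩(X.V) ↔ ∃ e, Ok e ∧ (J4q.mu X).ev e = g := fun g => by
    constructor
    · intro hg
      obtain ⟨p, hp⟩ := X.exists_TH hg
      have i := inH_code.2 hp.inM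
      obtain ⟨v, hv, e⟩ := hp.div (p := p) (by simpa using J4q.th_kc X i)
      exact ⟨_, ok_pr hv i, by rw [MH.ev_pr _ _ i, J4q.mu_ν, e, inv_mul_cancel_right]⟩
    · rintro ⟨e, he, rfl⟩
      exact ((J4q.th_kc X he.2).mulV (X.ev_mem he.1)).mem
  have imN : ∀ g ∈ μ.im, φ g ∈ 𝒩(X.V) := by
    rintro _ ⟨e, he, rfl⟩
    exact (eN _).2 ⟨e, he, (ee e he).symm⟩
  have tN : φ jt ∉ 𝒩(X.V) := fun h => by
    have l := X.ev_mem (show 20 < 2048 by norm_num)
    have := conj_mem_of_mem_norm h l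
    rw [inv_eq_of_mul_eq_one_right rs'.t2, show φ jt * X.ev 20 * φ jt = X.ev 20 * _ from rs'.tv] at this
    exact HM.ne_one_of_code k20_in.code_perm (by decide +kernel)
      ((J4q.th_kc X k20_in).eq_one ((mul_mem_cancel_left l).1 this))
  obtain ⟨hi, c, c1, c2, c3⟩ := X.s5629 X.V_elem X.card_V
  have c3' : ∀ i, (MulAction.orbit 𝒩(X.V) (c i)).ncard =
      ![1, 15180, 28336, 3400320, 32643072, 54405120, 82575360] i := fun i => by
    simp only [List.ofFn_succ, List.ofFn_zero, List.cons.injEq, and_true] at c3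
    fin_cases i <;> simp_all
  have su : φ.range = ⊤ := eq_top_of_rank (fun g hg => by
    obtain ⟨e, he, rfl⟩ := (eN g).1 hg
    exact ⟨_, ee e he⟩) hi c c1 c2 c3' ⟨jt, rfl⟩ tN
  have om : ∀ g, Om μ jt g := fun g => om_of_omS (gen_J4 (im_le_omS (a ▸ μ.kc_mem x0_in))
    (im_le_omS (b ▸ μ.kc_mem y0_in)) (rs.t_omS be) ▸ mem_top g)
  choose f hf using fun k : Fin 7 => c2 (φ (rep7 μ jt k) : G ⧸ 𝒩(X.V))
  have key : ∀ (k : Fin 7) (u v : Spor.J4), u ∈ μ.im → v ∈ μ.im → ∀ i,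
      ((φ (u * rep7 μ jt k * v) : G) : G ⧸ 𝒩(X.V)) ∈ MulAction.orbit 𝒩(X.V) (c i) → f k = i := by
    intro k u v hu hv i hi
    by_contra hne
    refine Set.disjoint_left.1 (orbit_disj (c1 _ _ hne)) ?_ hi
    have : ((φ (u * rep7 μ jt k * v) : G) : G ⧸ 𝒩(X.V)) =
        (⟨φ u, imN u hu⟩ : 𝒩(X.V)) • ((φ (rep7 μ jt k) : G) : G ⧸ 𝒩(X.V)) := by
      rw [map_mul, QuotientGroup.mk_mul_of_mem _ (imN v hv), map_mul]; rfl
    rw [this]
    obtain ⟨n, hn⟩ := hf k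
    exact ⟨_ * n, (mul_smul _ _ _).trans (congrArg _ hn)⟩
  have fs : Function.Surjective f := fun i => by
    obtain ⟨g, hg⟩ := QuotientGroup.mk_surjective (c i)
    obtain ⟨γ, rfl⟩ : g ∈ φ.range := su ▸ mem_top g
    obtain ⟨k, hk, u, hu, v, hv, rfl⟩ := om γ
    exact ⟨⟨k, hk⟩, key ⟨k, hk⟩ u v hu hv i (hg ▸ MulAction.mem_orbit_self _)⟩
  have inj : Function.Injective φ := (injective_iff_map_eq_one φ).2 fun γ hγ => by
    obtain ⟨k, hk, u, hu, v, hv, rfl⟩ := om γ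
    have e0 : rep7 μ jt (0 : Fin 7) = 1 := if_pos rfl
    have : (⟨k, hk⟩ : Fin 7) = 0 := Finite.injective_iff_surjective.2 fs
      (key ⟨k, hk⟩ u v hu hv _ (by have := hf 0; rw [e0, map_one] at this; exact hγ.symm ▸ this))
    obtain rfl : k = 0 := congrArg Fin.val this
    rw [show rep7 μ jt 0 = 1 from e0, mul_one] at hγ ⊢
    obtain ⟨e, he, e1⟩ := mul_mem hu hv
    rw [← e1, ee e he, ← MH.ev_one] at hγ
    rw [← e1, J4q.ev_inj X he ok_one hγ, μ.ev_one]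
  exact ⟨MulEquiv.ofBijective φ ⟨inj, MonoidHom.range_eq_top.1 su⟩, px, py, pt'⟩

theorem isoJ4 (X : HM G) [Fact X.Fu] : Spor.IsoJ4 G := (exists_iso X).elim fun e _ => ⟨e.symm⟩

end

theorem realizeEqns_J4u_Iso : True := by
  have := @CA.J4u.MH.map.eq_1.{0,0}
  have := @CA.J4u.MH.map.eq_def.{0,0}
  have := @CA.J4u.MH.map.congr_simp.{0,0}
  trivial

end CA.J4u
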