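import Cfsg.Agent.J4u.Phi

/-! The elementary abelian group of order 2048 inside a group satisfying the twelve relators. -/

set_option autoImplicit false
set_option maxRecDepth 100000

namespace CA.J4u

open CA.M24 CA.J4 Cfsg Equiv
open scoped Pointwise symmDiff

noncomputable section

theorem M24_le_xy : M24 ≤ gen [x0, y0] :=
  le_gen_of_chainLB [(nat_lit 0, nat_lit 7, [[nat_lit 1, nat_lit 0, nat_lit 1, nat_lit 0, nat_lit 1, nat_lit 1, nat_lit 0, nat_lit 1, nat_lit 0, nat_lit 1, nat_lit 1, nat_lit 1, nat_lit 1, nat_lit 1, nat_lit 1, nat_lit 1, nat_lit 1, nat_lit 1, nat_lit 0, nat_lit 1, nat_lit 0, nat_lit 0, nat_lit 0, nat_lit 1, nat_lit 1, nat_lit 0, nat_lit 0, nat_lit 1, nat_lit 1, nat_lit 1, nat_lit 0, nat_lit 0], [nat_lit 1, nat_lit 0, nat_lit 1, nat_lit 0, nat_lit 1, nat_lit 0, nat_lit 0, nat_lit 0, nat_lit 0, nat_lit 0, nat_lit 1, nat_lit 0, nat_lit 0, nat_lit 1, nat_lit 0, nat_lit 0, nat_lit 1, nat_lit 0, nat_lit 0, nat_lit 1, nat_lit 0, nat_lit 0, nat_lit 1, nat_lit 0, nat_lit 1, nat_lit 1, nat_lit 0, nat_lit 1, nat_lit 0, nat_lit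 0, nat_lit 0, nat_lit 0]]), (nat_lit 1, nat_lit 5, [[nat_lit 1, nat_lit 0, nat_lit 0, nat_lit 1, nat_lit 1, nat_lit 1, nat_lit 0, nat_lit 0, nat_lit 1, nat_lit 0, nat_lit 0, nat_lit 0, nat_lit 1, nat_lit 1, nat_lit 1, nat_lit 0, nat_lit 0, nat_lit 1, nat_lit 0, nat_lit 0, nat_lit 1, nat_lit 0, nat_lit 1, nat_lit 1, nat_lit 1, nat_lit 0, nat_lit 1, nat_lit 0, nat_lit 1], [nat_lit 1, nat_lit 0, nat_lit 0, nat_lit 1, nat_lit 1, nat_lit 1, nat_lit 0, nat_lit 0, nat_lit 1, nat_lit 0, nat_lit 0, nat_lit 1, nat_lit 0, nat_lit 1, nat_lit 1, nat_lit 0, nat_lit 1, nat_lit 1, nat_lit 0, nat_lit 1, nat_lit 0, nat_lit 1, nat_lit 0, nat_lit 1]]), (nat_lit 2, nat_lit 4, [[nat_lit 1, nat_lit 0, nat_lit 0, nat_lit 0, nat_lit 0, nat_lit 0, nat_lit 1, nat_lit 1, nat_lit 1, nat_lit 0], [nat_lit 1, nat_lit 1, nat_lit 1, nat_lit 0, nat_lit 0, nat_lit 0, nat_lit 0, nat_lit 1, nat_lit 1, nat_lit 1, nat_lit 1, nat_lit 1, nat_lit 1, nat_lit 1, nat_lit 1, nat_lit 0, nat_lit 0, nat_lit 0, nat_lit 0, nat_lit 0, nat_lit 1, nat_lit 0, nat_lit 1, nat_lit 0, nat_lit 0,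 nat_lit 0, nat_lit 0, nat_lit 1, nat_lit 0, nat_lit 1, nat_lit 0, nat_lit 0, nat_lit 1, nat_lit 0]]), (nat_lit 3, nat_lit 4, [[nat_lit 0, nat_lit 1, nat_lit 1, nat_lit 0, nat_lit 1, nat_lit 0, nat_lit 1, nat_lit 1, nat_lit 1, nat_lit 0, nat_lit 1, nat_lit 0, nat_lit 0, nat_lit 1, nat_lit 1, nat_lit 1, nat_lit 1, nat_lit 1, nat_lit 0, nat_lit 1, nat_lit 1, nat_lit 1, nat_lit 1, nat_lit 1, nat_lit 0, nat_lit 0, nat_lit 1, nat_lit 0, nat_lit 1, nat_lit 0, nat_lit 1, nat_lit 0, nat_lit 1, nat_lit 1], [nat_lit 0, nat_lit 1, nat_lit 0, nat_lit 0, nat_lit 0, nat_lit 1, nat_lit 1, nat_lit 0, nat_lit 1, nat_lit 1, nat_lit 0]]), (nat_lit 4, nat_lit 5, [[nat_lit 1, nat_lit 0, nat_lit 1, nat_lit 0, nat_lit 1, nat_lit 0, nat_lit 0, nat_lit 1, nat_lit 0, nat_lit 0, nat_lit 0, nat_lit 0, nat_lit 1, nat_lit 0, nat_lit 0, nat_lit 1, nat_lit 0, nat_lit 1, nat_lit 1, nat_lit 0], [nat_lit 0, nat_lit 0, nat_lit 1, nat_lit 1, nat_lit 0, nat_lit 0, nat_lit 1, nat_lit 1, nat_lit 0, nat_lit 1, nat_lit 1, nat_lit 1, nat_lit 1, nat_lit 0, nat_lit 0, nat_lit 0, nat_lit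 1, nat_lit 1, nat_lit 1, nat_lit 1, nat_lit 0, nat_lit 1, nat_lit 1, nat_lit 1, nat_lit 0, nat_lit 0, nat_lit 1, nat_lit 1, nat_lit 1, nat_lit 1], [nat_lit 1, nat_lit 0, nat_lit 0, nat_lit 1, nat_lit 0, nat_lit 0, nat_lit 0, nat_lit 0, nat_lit 0, nat_lit 1, nat_lit 1, nat_lit 1, nat_lit 0, nat_lit 0, nat_lit 1, nat_lit 0, nat_lit 0, nat_lit 1, nat_lit 0, nat_lit 0, nat_lit 0]]), (nat_lit 5, nat_lit 2, [[nat_lit 2, nat_lit 2, nat_lit 2, nat_lit 2, nat_lit 1, nat_lit 0, nat_lit 1, nat_lit 2, nat_lit 0, nat_lit 2, nat_lit 0, nat_lit 2, nat_lit 1, nat_lit 0, nat_lit 1, nat_lit 2, nat_lit 0, nat_lit 0], [nat_lit 1, nat_lit 0, nat_lit 2, nat_lit 0, nat_lit 1, nat_lit 1, nat_lit 2, nat_lit 1, nat_lit 2, nat_lit 1, nat_lit 1, nat_lit 2, nat_lit 2, nat_lit 2]]), (nat_lit 6, nat_lit 1, [])]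
    (inM_of_allL (by decide +kernel)) (by rw [card_M24]; decide +kernel)

def SS : ℕ := nat_lit 11850674208859881600580491196244482116817200
def gs0 : ℕ := nat_lit 651243335958416815976930392154418515
def gs1 : ℕ := nat_lit 132455163973460856408476115458674153
def fixS (c : ℕ) : Bool := Nat.beq ((famC 6).act c SS) SS

theorem SS_TS : (famC 6).dec SS ∈ (famC 6).TS sexT ∧ (famC 6).enc ((famC 6).dec SS) = SS :=
  (famC 6).dec_mem_TS (by decide +kernel)
theorem SS_le : St ((famC 6).dec SS) ≤ gen [gs0, gs1] :=
  le_gen_of_chainLB [(nat_lit 0, nat_lit 6, [[nat_lit 0, nat_lit 0, nat_lit 0, nat_lit 1], [nat_lit 0, nat_lit 0, nat_lit 0, nat_lit 0, nat_lit 0, nat_lit 0, nat_lit 1, nat_lit 0, nat_lit 1, nat_lit 1, nat_lit 0]]), (nat_lit 1, nat_lit 5, [[nat_lit 1, nat_lit 1, nat_lit 1, nat_lit 1, nat_lit 1, nat_lit 1, nat_lit 1, nat_lit 0, nat_lit 1], [nat_lit 1, nat_lit 1, nat_lit 0, nat_lit 0, nat_lit 1, nat_lit 0, nat_lit 0, nat_lit 1, nat_lit 1, nat_lit 0, nat_lit 0, nat_lit 0, nat_lit 0], [nat_lit 0, nat_lit 0, nat_lit 0, nat_lit 1, nat_lit 1,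 nat_lit 1, nat_lit 1]]), (nat_lit 2, nat_lit 1, [[nat_lit 2], [nat_lit 0, nat_lit 0, nat_lit 1, nat_lit 2, nat_lit 0, nat_lit 2, nat_lit 1, nat_lit 1]]), (nat_lit 3, nat_lit 3, [[nat_lit 1, nat_lit 0, nat_lit 0, nat_lit 1, nat_lit 0, nat_lit 1], [nat_lit 1, nat_lit 1, nat_lit 1, nat_lit 0, nat_lit 1, nat_lit 1, nat_lit 0, nat_lit 0]]), (nat_lit 4, nat_lit 2, [[nat_lit 0, nat_lit 1, nat_lit 1, nat_lit 1, nat_lit 0, nat_lit 1, nat_lit 0], [nat_lit 1, nat_lit 1, nat_lit 0, nat_lit 0]]), (nat_lit 5, nat_lit 1, [])]
    (inH_inf_stab_all (famC 6) (inM_of_allL (by decide +kernel)) (by decide +kernel) (by decide +kernel))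
    (by rw [card_stab_sextet (sextets_eq ▸ SS_TS.1)]; decide +kernel)
theorem gs0_in : InH M24 gs0 := inM_of_chk (by decide +kernel)
theorem gs1_in : InH M24 gs1 := inM_of_chk (by decide +kernel)

theorem act_def (p : Perm Pt) {x : ℕ} (hx : x < 2048) : act (code p) x = coc (mask (p • unmask (sec x))) := by
  rw [act, force_eq, force_eq, ← mapp_code, mask_unmask (sec_spec hx).2.1]

theorem act_xor (p : Perm Pt) {a b : ℕ} (ha : a < 2048) (hb : b < 2048) :
    act (code p) (a ^^^ b) = act (code p) a ^^^ act (code p) b := by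
  have e : unmask (sec (a ^^^ b)) = unmask (sec a) ∆ unmask (sec b) := mask_inj (by
    rw [mask_symmDiff, mask_unmask (sec_spec ha).2.1, mask_unmask (sec_spec hb).2.1,
      mask_unmask (sec_spec (xor_lt11 ha hb)).2.1]
    exact xorSel_xor ..)
  rw [act_def p ha, act_def p hb, act_def p (xor_lt11 ha hb), e, Finset.smul_finset_symmDiff, mask_symmDiff, coc_xor]

theorem even_sec {x : ℕ} (hx : x < 2048) : Even (unmask (sec x)).card := by
  rw [card_unmask (sec_spec hx).2.1, Nat.even_iff]; exact (sec_spec hx).2.2

theorem act_coc {p : Perm Pt} (hp : p ∈ M24) {T : Finset Pt} (hT : Even T.card) :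
    act (code p) (coc (mask T)) = coc (mask (p • T)) := by
  have l := coc_lt (mask T)
  have ev : Even (unmask (sec (coc (mask T))) ∆ T).card := by
    have h1 := Finset.card_sdiff_add_card_inter (unmask (sec (coc (mask T)))) T
    have h2 := Finset.card_sdiff_add_card_inter T (unmask (sec (coc (mask T))))
    have h3 := even_sec l
    rw [Finset.inter_comm] at h2
    rw [Finset.symmDiff_def, Finset.card_union_of_disjoint disjoint_sdiff_sdiff]
    rw [Nat.even_iff] at *
    omega
  have a : unmask (sec (coc (mask T))) ∆ T ∈ Cs := (coc_eq_zero ev).1 (by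
    rw [mask_symmDiff, coc_xor, mask_unmask (sec_spec l).2.1, (sec_spec l).1, Nat.xor_self])
  have b := (coc_eq_zero (by rw [Finset.card_smul_finset]; exact ev)).2 (smul_mem_Cs hp a)
  rw [Finset.smul_finset_symmDiff, mask_symmDiff, coc_xor] at b
  rw [act_def p l]
  exact Nat.eq_of_xor_eq_zero b

def mvK (s h : ℕ) : ℕ := bif' (Nat.beq s (nat_lit 1))
  (bif' (band (Nat.beq (fs h) (nat_lit 0)) (force (sn h) fixS)) h (nat_lit 0)) (mvK0 s h)

def b2 : ℕ := nat_lit 629939452811627404088008158767155954
def b3 : ℕ := nat_lit 717836879933051065501222214875287189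
def cz : ℕ := nat_lit 653022225225908351098596954140449093
def wZ : List ℕ × List ℕ := ([pone, 1, pone], (wCube m3 pone).1)
def wLine : List ℕ × List ℕ := ([pone, nat_lit 1, nat_lit 634236318724280845751450583685252416, nat_lit 1, pone], [nat_lit 694809491594268357813329554360812650, nat_lit 1, nat_lit 194038268905149961806468130516961296])
def wTv : List ℕ × List ℕ := ([pone, 0, cz, 1, pinv cz, 0, pone], [cz, 1, pmul (pinv cz) k20])
def wDz (a k : ℕ) : List ℕ × List ℕ := ([pone, 1, a, 1, pone], [pone, k, pone])
def scA1 : List (List ℕ × List ℕ) := [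
  ([pone, nat_lit 0, nat_lit 964593714816261008327593313106998304, nat_lit 0, pone], [nat_lit 992368857887583835991345935660718522405, nat_lit 33, nat_lit 1024]),
  ([pone, nat_lit 0, pone], [nat_lit 1]),
  ([pone, nat_lit 0, nat_lit 138343368468761245460927202459681521, nat_lit 0, pone], [nat_lit 638759263911798458896688355035130900484, nat_lit 0, nat_lit 274381096796202874406275013276224229396, nat_lit 16, nat_lit 948252880940645799357430408572618490932, nat_lit 1058, nat_lit 274381096796202874406275013276224229380, nat_lit 0, nat_lit 259839829857987070992952859476678026276, nat_lit 1042, nat_lit 308843903553723973437215737154747056164, nat_lit 1042])]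

def gcA1 : List (List ℕ) := [
  [nat_lit 5120, nat_lit 18, nat_lit 565434923148522222671624502158790559764, nat_lit 1040, nat_lit 328792342591061645491445054545861314580, nat_lit 2, nat_lit 2082, nat_lit 735525255964014025938840136275787994116, nat_lit 611626211065674675344773788226004453396, nat_lit 68753217519838164621385770128317758500, nat_lit 5121],
  [nat_lit 5120, nat_lit 2, nat_lit 565434923148522222671624502158790559748, nat_lit 1024, nat_lit 2066, nat_lit 966821373691575557461948805440843860004, nat_lit 18, nat_lit 511137954788252016357782593630417179652, nat_lit 981678225554640156812147722999150655508, nat_lit 410875740175975722802487638667641788452, nat_lit 5121],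
  [nat_lit 5136, nat_lit 5120, nat_lit 34, nat_lit 706204557713826928445851152698613369892, nat_lit 18, nat_lit 3074, nat_lit 46833639385930314001815097836523200548, nat_lit 18, nat_lit 3074, nat_lit 3074]]

def scA2 : List (List ℕ × List ℕ) := [
  ([pone, nat_lit 0, nat_lit 964593714816261008327593313106998304, nat_lit 0, pone], [nat_lit 992368857887583835991345935660718522405, nat_lit 33, nat_lit 1024]),
  ([nat_lit 266731438826489166677316144166807141, nat_lit 0, nat_lit 549790803565900383787522450221827091, nat_lit 0, nat_lit 612173880644049708673988582388974608, nat_lit 0, nat_lit 549790803565900383787522450221827091, nat_lit 0, nat_lit 308255872354909903875099088591669313], [nat_lit 273132993358324906677571731626810512421, nat_lit 4096]),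
  ([pone, nat_lit 0, nat_lit 549790803565900383787522450221827091, nat_lit 0, pone], [nat_lit 953577857749456250742713124152696996901, nat_lit 2081, nat_lit 315654013291427741568101466717869376565, nat_lit 2097, nat_lit 0]),
  ([pone, nat_lit 0, nat_lit 308255872354909903875099088591669313, nat_lit 0, pone], [nat_lit 1])]

def gcA2 : List (List ℕ) := [
  [nat_lit 446149663613335656752481141135232303124, nat_lit 6160, nat_lit 242812908060826619230285219708172186628, nat_lit 6144, nat_lit 235546342155640844808884264016276797492, nat_lit 34, nat_lit 400698972330584642118474983569692858404, nat_lit 18, nat_lit 565434923148522222671624502158790559764, nat_lit 3074, nat_lit 864248852694761360188103570097004195892, nat_lit 34, nat_lit 738120106843277033569604684898457303076, nat_lit 3090, nat_lit 565434923148522222671624502158790559796, nat_lit 3106, nat_lit 795510776609297704547926929841845317636, nat_lit 488144338238227876923378844465931819028, nat_lit 596263504778823702653591651652847684644, nat_lit 6145],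
  [nat_lit 666873176021418819560376721566124559380, nat_lit 6160, nat_lit 411579593247999852884062442621683931156, nat_lit 1026, nat_lit 865546361867823911382502132632512955428, nat_lit 1042, nat_lit 496121868871905192472032925649033304116, nat_lit 1058, nat_lit 4146, nat_lit 232187034867627718841780200533163296772, nat_lit 560087403734334072555829369005081135124, nat_lit 359773460862385078171428388891785730084, nat_lit 6145, nat_lit 728021117993801096318233813445849194500]]

def scB : List (List ℕ × List ℕ) := [
  ([pone, nat_lit 1, pone], [nat_lit 649176876029235790052008861058652962837, nat_lit 17, nat_lit 1024]),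
  ([pone, nat_lit 2, pone], [nat_lit 3073, nat_lit 48207339705969822654959964849355994132, nat_lit 3074]),
  ([pone, nat_lit 2, pone], [nat_lit 4097, nat_lit 323403108024310824211519158627223339028, nat_lit 4098]),
  ([pone, nat_lit 2, pone], [nat_lit 5121, nat_lit 904393863132867521365290139933273686036, nat_lit 5122]),
  ([pone, nat_lit 2, pone], [nat_lit 6145, nat_lit 266075411078120067588000682415330276372, nat_lit 6146]),
  ([pone, nat_lit 1, pone, nat_lit 2, pone], [nat_lit 7185, nat_lit 5120]),
  ([pone, nat_lit 1, nat_lit 772644476221328859828114864195904972, nat_lit 1, pone], [nat_lit 5120, nat_lit 7186, nat_lit 58122995978871597088690205001604814868, nat_lit 8194]),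
  ([pone, nat_lit 2, pone], [nat_lit 9217, nat_lit 666873176021418819560376721566124559380, nat_lit 2]),
  ([pone, nat_lit 3, pone], [nat_lit 11265, nat_lit 487040835909086736598841471068430980116, nat_lit 11266]),
  ([pone, nat_lit 3, pone], [nat_lit 12289, nat_lit 530906025924314040714427883334398986260, nat_lit 12290]),
  ([pone, nat_lit 1, pone, nat_lit 3, pone], [nat_lit 13329, nat_lit 10240]),
  ([pone, nat_lit 1, nat_lit 215766432740451674846789352646226007, nat_lit 1, pone], [nat_lit 10240, nat_lit 12306, nat_lit 602321249375674418354044228176772139028, nat_lit 14338]),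
  ([pone, nat_lit 3, pone], [nat_lit 15361, nat_lit 306492329339776377575918211189181916180, nat_lit 2]),
  ([pone, nat_lit 1, nat_lit 603628166393347181475775531077278979, nat_lit 2, pone], [nat_lit 12288, nat_lit 7186, nat_lit 536657980275793278900631465624917711892, nat_lit 16386]),
  ([pone, nat_lit 1, nat_lit 553004263696778231568488427580641359, nat_lit 3, pone], [nat_lit 17, nat_lit 14336]),
  ([pone, nat_lit 1, nat_lit 603628166393347181475775531077278979, nat_lit 3, pone], [nat_lit 14336, nat_lit 4114, nat_lit 265414685078447845679509817547168074772, nat_lit 18434]),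
  ([pone, nat_lit 1, nat_lit 111169567817055162784077865642836210, nat_lit 3, pone], [nat_lit 15360, nat_lit 1042, nat_lit 11281, nat_lit 8209, nat_lit 13329, nat_lit 12305, nat_lit 2050]),
  ([pone, nat_lit 1, nat_lit 541583991880626942695069845571557493, nat_lit 3, pone], [nat_lit 16384, nat_lit 2066, nat_lit 9232, nat_lit 13328, nat_lit 9233, nat_lit 15376, nat_lit 9233, nat_lit 3074]),
  ([pone, nat_lit 3, pone], [nat_lit 1, nat_lit 5136, nat_lit 8209, nat_lit 9233, nat_lit 2]),
  ([pone, nat_lit 3, pone], [nat_lit 2049, nat_lit 9232, nat_lit 17, nat_lit 2050]),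
  ([pone, nat_lit 3, pone], [nat_lit 4097, nat_lit 11280, nat_lit 1040, nat_lit 17, nat_lit 9218]),
  ([pone, nat_lit 1, nat_lit 717836879933051065501222214875287189, nat_lit 1, pone], [nat_lit 24576, nat_lit 0]),
  ([pone, nat_lit 1, pone], [nat_lit 649176876029235790052008861058652962837, nat_lit 22545, nat_lit 23552]),
  ([pone, nat_lit 1, pone], [nat_lit 735064965051444291073251548032294081557, nat_lit 23569, nat_lit 1024]),
  ([pone, nat_lit 2, pone], [nat_lit 26625, nat_lit 266038131891640564372554280540096004116, nat_lit 26626]),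
  ([pone, nat_lit 2, pone], [nat_lit 27649, nat_lit 48207339705969822654959964849355994132, nat_lit 27650]),
  ([pone, nat_lit 2, pone], [nat_lit 28673, nat_lit 323403108024310824211519158627223339028, nat_lit 28674]),
  ([pone, nat_lit 2, pone], [nat_lit 29697, nat_lit 904393863132867521365290139933273686036, nat_lit 29698]),
  ([pone, nat_lit 2, pone], [nat_lit 30721, nat_lit 266075411078120067588000682415330276372, nat_lit 30722]),
  ([pone, nat_lit 1, pone, nat_lit 2, pone], [nat_lit 31761, nat_lit 29696]),
  ([pone, nat_lit 1, nat_lit 772644476221328859828114864195904972, nat_lit 1, pone], [nat_lit 7168, nat_lit 31762, nat_lit 58122995978871597088690205001604814868, nat_lit 32770]),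
  ([pone, nat_lit 2, pone], [nat_lit 33793, nat_lit 666873176021418819560376721566124559380, nat_lit 2]),
  ([pone, nat_lit 1, nat_lit 975679300780115410292755137488963072, nat_lit 2, pone], [nat_lit 1041, nat_lit 32768]),
  ([pone, nat_lit 1, nat_lit 430408328738207444791211448944729360, nat_lit 1, pone], [nat_lit 9216, nat_lit 34834, nat_lit 898773749325763082139558620682284185620, nat_lit 35842]),
  ([pone, nat_lit 2, pone], [nat_lit 36865, nat_lit 669074731153650761865824984066994536468, nat_lit 2]),
  ([pone, nat_lit 1, nat_lit 512229034082757523211746491288954608, nat_lit 2, pone], [nat_lit 1041, nat_lit 35840]),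
  ([pone, nat_lit 1, nat_lit 435684544379145555907325172633554664, nat_lit 2, pone], [nat_lit 13312, nat_lit 6162, nat_lit 498023435313361407256972856157169304596, nat_lit 38914])]

def gcB : List (List ℕ) := [
  [nat_lit 22, nat_lit 37890],
  [nat_lit 70, nat_lit 46, nat_lit 22, nat_lit 260864023124284129554715494773445218356, nat_lit 38946, nat_lit 274679048797674177532386401548190908452, nat_lit 38930, nat_lit 37890],
  [nat_lit 22, nat_lit 37890],
  [nat_lit 102, nat_lit 62, nat_lit 38, nat_lit 647481300178835680465503242306207357012, nat_lit 40002, nat_lit 5185, nat_lit 5185, nat_lit 8257, nat_lit 11329, nat_lit 4146, nat_lit 709406652755396183816905303134723182644, nat_lit 39970, nat_lit 5153, nat_lit 5153, nat_lit 8225, nat_lit 11297, nat_lit 4114, nat_lit 37890],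
  [nat_lit 102, nat_lit 62, nat_lit 38, nat_lit 529680664611838918879491628228113672276, nat_lit 40002, nat_lit 5184, nat_lit 8257, nat_lit 11329, nat_lit 4146, nat_lit 704916011912185153972030934438800625716, nat_lit 39970, nat_lit 5152, nat_lit 9249, nat_lit 4114, nat_lit 37890],
  [nat_lit 38, nat_lit 532415710796330738698464745011509762100, nat_lit 39970, nat_lit 5153, nat_lit 5153, nat_lit 8225, nat_lit 11297, nat_lit 4114, nat_lit 37890],
  [nat_lit 102, nat_lit 62, nat_lit 38, nat_lit 706201789915904658320130611541289111636, nat_lit 38978, nat_lit 646062747112485120103742619467754735684, nat_lit 39986, nat_lit 9265, nat_lit 34, nat_lit 5152, nat_lit 9248, nat_lit 4114, nat_lit 37890],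
  [nat_lit 102, nat_lit 62, nat_lit 38, nat_lit 962950516667999830192846767647048110164, nat_lit 40002, nat_lit 5185, nat_lit 5185, nat_lit 8257, nat_lit 11329, nat_lit 4146, nat_lit 709406652755396183816905303134723182644, nat_lit 39970, nat_lit 5153, nat_lit 5153, nat_lit 8225, nat_lit 11297, nat_lit 4114, nat_lit 37890],
  [nat_lit 118, nat_lit 78, nat_lit 38, nat_lit 532415710796330738698464745011509762164, nat_lit 40034, nat_lit 9312, nat_lit 82, nat_lit 5201, nat_lit 11345, nat_lit 66, nat_lit 9281, nat_lit 50, nat_lit 5168, nat_lit 9265, nat_lit 34, nat_lit 9249, nat_lit 5153, nat_lit 4114, nat_lit 37890],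
  [nat_lit 38, nat_lit 127696318557225539175626101832645458996, nat_lit 39970, nat_lit 5153, nat_lit 5153, nat_lit 8225, nat_lit 11297, nat_lit 4114, nat_lit 37890],
  [nat_lit 70, nat_lit 46, nat_lit 22, nat_lit 273085006649077245148991753687702700084, nat_lit 38946, nat_lit 274679048797674177532386401548190908452, nat_lit 38930, nat_lit 37890],
  [nat_lit 70, nat_lit 46, nat_lit 22, nat_lit 948710655689203965808463531472342037556, nat_lit 39970, nat_lit 5153, nat_lit 5153, nat_lit 8225, nat_lit 11297, nat_lit 4114, nat_lit 37890],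
  [nat_lit 86, nat_lit 62, nat_lit 22, nat_lit 532415710796330738698464745011509762132, nat_lit 40002, nat_lit 11328, nat_lit 2112, nat_lit 11328, nat_lit 1074, nat_lit 687739297389729542631490388230652988468, nat_lit 15394, nat_lit 856357052471028151875038348961744856100, nat_lit 38930, nat_lit 37890],
  [nat_lit 86, nat_lit 62, nat_lit 22, nat_lit 127696318557225539175626101832645459028, nat_lit 40002, nat_lit 9281, nat_lit 2113, nat_lit 5185, nat_lit 8257, nat_lit 50, nat_lit 2097, nat_lit 8241, nat_lit 34, nat_lit 2081, nat_lit 2081, nat_lit 2081, nat_lit 4114, nat_lit 37890],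
  [nat_lit 22, nat_lit 37890],
  [nat_lit 70, nat_lit 46, nat_lit 22, nat_lit 444508709071110062909515280489624218676, nat_lit 39970, nat_lit 5153, nat_lit 5153, nat_lit 8225, nat_lit 11297, nat_lit 4114, nat_lit 37890],
  [nat_lit 70, nat_lit 46, nat_lit 22, nat_lit 983979996175564928409625994501886804020, nat_lit 38946, nat_lit 274679048797674177532386401548190908452, nat_lit 38930, nat_lit 37890],
  [nat_lit 86, nat_lit 62, nat_lit 22, nat_lit 532415710796330738698464745011509762132, nat_lit 40002, nat_lit 9281, nat_lit 5184, nat_lit 10305, nat_lit 2112, nat_lit 7218, nat_lit 440774343028199180741719851786805087284, nat_lit 39970, nat_lit 11296, nat_lit 2080, nat_lit 9249, nat_lit 4114, nat_lit 37890],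
  [nat_lit 86, nat_lit 62, nat_lit 22, nat_lit 127696318557225539175626101832645459028, nat_lit 40002, nat_lit 9281, nat_lit 5185, nat_lit 5185, nat_lit 2112, nat_lit 7218, nat_lit 389964510827965826494390572298259597364, nat_lit 15394, nat_lit 216968100755742598993330632234498499620, nat_lit 38930, nat_lit 37890],
  [nat_lit 70, nat_lit 46, nat_lit 22, nat_lit 663665678072936573093823950458822797364, nat_lit 38946, nat_lit 274679048797674177532386401548190908452, nat_lit 38930, nat_lit 37890],
  [nat_lit 22, nat_lit 37890],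
  [nat_lit 70, nat_lit 46, nat_lit 22, nat_lit 595606612040767617300446770354849554484, nat_lit 38946, nat_lit 274679048797674177532386401548190908452, nat_lit 38930, nat_lit 37890],
  [nat_lit 70, nat_lit 46, nat_lit 22, nat_lit 533115396768486854491075466107006826548, nat_lit 38946, nat_lit 274679048797674177532386401548190908452, nat_lit 38930, nat_lit 37890],
  [nat_lit 86, nat_lit 62, nat_lit 22, nat_lit 532415710796330738698464745011509762132, nat_lit 40002, nat_lit 11329, nat_lit 50, nat_lit 5169, nat_lit 5169, nat_lit 8241, nat_lit 11313, nat_lit 4130, nat_lit 73570085470999994667503062218565998628, nat_lit 38930, nat_lit 37890],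
  [nat_lit 86, nat_lit 62, nat_lit 22, nat_lit 127696318557225539175626101832645459028, nat_lit 40002, nat_lit 8257, nat_lit 50, nat_lit 5169, nat_lit 5169, nat_lit 8241, nat_lit 11313, nat_lit 4130, nat_lit 73570085470999994667503062218565998628, nat_lit 38930, nat_lit 37890],
  [nat_lit 70, nat_lit 46, nat_lit 22, nat_lit 49710160773070103303292739228678502452, nat_lit 38946, nat_lit 274679048797674177532386401548190908452, nat_lit 38930, nat_lit 37890],
  [nat_lit 70, nat_lit 46, nat_lit 22, nat_lit 97831319335442976960091038426958831668, nat_lit 38946, nat_lit 274679048797674177532386401548190908452, nat_lit 38930, nat_lit 37890],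
  [nat_lit 22, nat_lit 37890],
  [nat_lit 70, nat_lit 46, nat_lit 22, nat_lit 428018651941196892697628151882554430516, nat_lit 15394, nat_lit 581793802545058088729715113323845405732, nat_lit 15378, nat_lit 37890],
  [nat_lit 70, nat_lit 46, nat_lit 22, nat_lit 55306508678360296767446744366531724340, nat_lit 15394, nat_lit 581793802545058088729715113323845405732, nat_lit 15378, nat_lit 37890],
  [nat_lit 86, nat_lit 62, nat_lit 22, nat_lit 532415710796330738698464745011509762132, nat_lit 40002, nat_lit 2112, nat_lit 2112, nat_lit 10305, nat_lit 5184, nat_lit 2112, nat_lit 7218, nat_lit 387684612126837355966141550352738239540, nat_lit 15394, nat_lit 95297525780727402905817587586875667492, nat_lit 15378, nat_lit 37890],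
  [nat_lit 86, nat_lit 62, nat_lit 22, nat_lit 127696318557225539175626101832645459028, nat_lit 40002, nat_lit 9281, nat_lit 2113, nat_lit 11328, nat_lit 2112, nat_lit 4146, nat_lit 158643751071820257054730338072349099060, nat_lit 15394, nat_lit 513110781585619124135149305131305318436, nat_lit 15378, nat_lit 37890],
  [nat_lit 70, nat_lit 46, nat_lit 22, nat_lit 452480160637157766813607021674223639604, nat_lit 15394, nat_lit 581793802545058088729715113323845405732, nat_lit 15378, nat_lit 37890],
  [nat_lit 70, nat_lit 46, nat_lit 22, nat_lit 836228964821071824252282908559586406452, nat_lit 15394, nat_lit 581793802545058088729715113323845405732, nat_lit 15378, nat_lit 37890],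
  [nat_lit 70, nat_lit 46, nat_lit 22, nat_lit 642309770613771637846319712594350031924, nat_lit 39970, nat_lit 5153, nat_lit 5153, nat_lit 8225, nat_lit 11297, nat_lit 4114, nat_lit 37890],
  [nat_lit 22, nat_lit 37890],
  [nat_lit 70, nat_lit 46, nat_lit 22, nat_lit 651586065017008160323835928467397002292, nat_lit 15394, nat_lit 581793802545058088729715113323845405732, nat_lit 15378, nat_lit 37890],
  [nat_lit 70, nat_lit 46, nat_lit 22, nat_lit 143891101571566374150531147274443600948, nat_lit 15394, nat_lit 581793802545058088729715113323845405732, nat_lit 15378, nat_lit 37890],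
  [nat_lit 86, nat_lit 62, nat_lit 22, nat_lit 532415710796330738698464745011509762132, nat_lit 40002, nat_lit 2113, nat_lit 2113, nat_lit 2113, nat_lit 11329, nat_lit 4146, nat_lit 371311720964021935319921305576168441908, nat_lit 15394, nat_lit 962925309183611347298364544425130312740, nat_lit 15378, nat_lit 37890],
  [nat_lit 86, nat_lit 62, nat_lit 22, nat_lit 127696318557225539175626101832645459028, nat_lit 40002, nat_lit 2113, nat_lit 5184, nat_lit 9281, nat_lit 2113, nat_lit 4146, nat_lit 961496852589059075931664916352458179636, nat_lit 15394, nat_lit 901983348864485619342845283417381765156, nat_lit 15378, nat_lit 37890],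
  [nat_lit 70, nat_lit 46, nat_lit 22, nat_lit 282359138050967267485593948023420095540, nat_lit 15394, nat_lit 581793802545058088729715113323845405732, nat_lit 15378, nat_lit 37890],
  [nat_lit 70, nat_lit 46, nat_lit 22, nat_lit 470564364018697942052437356895665467444, nat_lit 15394, nat_lit 581793802545058088729715113323845405732, nat_lit 15378, nat_lit 37890],
  [nat_lit 70, nat_lit 46, nat_lit 22, nat_lit 134752700934088865062988271254261282868, nat_lit 39970, nat_lit 5153, nat_lit 5153, nat_lit 8225, nat_lit 11297, nat_lit 4114, nat_lit 37890],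
  [nat_lit 70, nat_lit 46, nat_lit 22, nat_lit 578604415927741801664723309996626626612, nat_lit 39970, nat_lit 5153, nat_lit 5153, nat_lit 8225, nat_lit 11297, nat_lit 4114, nat_lit 37890],
  [nat_lit 22, nat_lit 37890],
  [nat_lit 70, nat_lit 46, nat_lit 22, nat_lit 258583618872934242659546061538062867508, nat_lit 15394, nat_lit 581793802545058088729715113323845405732, nat_lit 15378, nat_lit 37890],
  [nat_lit 70, nat_lit 46, nat_lit 22, nat_lit 523342327956635823387490307245696587828, nat_lit 15394, nat_lit 581793802545058088729715113323845405732, nat_lit 15378, nat_lit 37890],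
  [nat_lit 86, nat_lit 62, nat_lit 22, nat_lit 532415710796330738698464745011509762132, nat_lit 40002, nat_lit 11329, nat_lit 2113, nat_lit 2113, nat_lit 10305, nat_lit 1074, nat_lit 511142895734404668388228593873703352372, nat_lit 15394, nat_lit 696143013303967492185152266251452660772, nat_lit 15378, nat_lit 37890],
  [nat_lit 86, nat_lit 62, nat_lit 22, nat_lit 127696318557225539175626101832645459028, nat_lit 40002, nat_lit 2112, nat_lit 5184, nat_lit 2112, nat_lit 10305, nat_lit 1074, nat_lit 666068676457150933210215443728112658484, nat_lit 15394, nat_lit 621126449960156229488554503487222973476, nat_lit 15378, nat_lit 37890],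
  [nat_lit 70, nat_lit 46, nat_lit 22, nat_lit 513110781585619124135149305131305318452, nat_lit 38946, nat_lit 274679048797674177532386401548190908452, nat_lit 38930, nat_lit 37890],
  [nat_lit 70, nat_lit 46, nat_lit 22, nat_lit 136027357662351392637211132714937369652, nat_lit 38946, nat_lit 274679048797674177532386401548190908452, nat_lit 38930, nat_lit 37890],
  [nat_lit 70, nat_lit 46, nat_lit 22, nat_lit 393958696000844512161696335500203984948, nat_lit 39970, nat_lit 5153, nat_lit 5153, nat_lit 8225, nat_lit 11297, nat_lit 4114, nat_lit 37890],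
  [nat_lit 70, nat_lit 46, nat_lit 22, nat_lit 577307422194877488544019769358917359668, nat_lit 39970, nat_lit 5153, nat_lit 5153, nat_lit 8225, nat_lit 11297, nat_lit 4114, nat_lit 37890],
  [nat_lit 70, nat_lit 46, nat_lit 22, nat_lit 900244610856202112882448304306066568244, nat_lit 39970, nat_lit 5153, nat_lit 5153, nat_lit 8225, nat_lit 11297, nat_lit 4114, nat_lit 37890],
  [nat_lit 22, nat_lit 37890],
  [nat_lit 70, nat_lit 46, nat_lit 22, nat_lit 646062747112485120103742619467754735668, nat_lit 15394, nat_lit 581793802545058088729715113323845405732, nat_lit 15378, nat_lit 37890],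
  [nat_lit 70, nat_lit 46, nat_lit 22, nat_lit 225449882575799512334318255779343487028, nat_lit 15394, nat_lit 581793802545058088729715113323845405732, nat_lit 15378, nat_lit 37890],
  [nat_lit 86, nat_lit 62, nat_lit 22, nat_lit 532415710796330738698464745011509762132, nat_lit 40002, nat_lit 8257, nat_lit 2112, nat_lit 5184, nat_lit 2112, nat_lit 4146, nat_lit 368487428906856842792443138283520271412, nat_lit 15394, nat_lit 371645369265821723671601221955369422884, nat_lit 15378, nat_lit 37890],
  [nat_lit 86, nat_lit 62, nat_lit 22, nat_lit 127696318557225539175626101832645459028, nat_lit 40002, nat_lit 10305, nat_lit 9281, nat_lit 2113, nat_lit 11328, nat_lit 2112, nat_lit 4146, nat_lit 158643751071820257054730338072349099060, nat_lit 15394, nat_lit 513110781585619124135149305131305318436, nat_lit 15378, nat_lit 37890],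
  [nat_lit 70, nat_lit 46, nat_lit 22, nat_lit 645183666937183048197530074896044638260, nat_lit 15394, nat_lit 581793802545058088729715113323845405732, nat_lit 15378, nat_lit 37890],
  [nat_lit 70, nat_lit 46, nat_lit 22, nat_lit 640711831227783515589038518050514214964, nat_lit 15394, nat_lit 581793802545058088729715113323845405732, nat_lit 15378, nat_lit 37890],
  [nat_lit 70, nat_lit 46, nat_lit 22, nat_lit 151970305343689922661437408018059933748, nat_lit 39970, nat_lit 5153, nat_lit 5153, nat_lit 8225, nat_lit 11297, nat_lit 4114, nat_lit 37890],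
  [nat_lit 70, nat_lit 46, nat_lit 22, nat_lit 584326129640679648279968179434234676276, nat_lit 39970, nat_lit 5153, nat_lit 5153, nat_lit 8225, nat_lit 11297, nat_lit 4114, nat_lit 37890],
  [nat_lit 70, nat_lit 46, nat_lit 22, nat_lit 1006522341041621935576241728505772638260, nat_lit 39970, nat_lit 5153, nat_lit 5153, nat_lit 8225, nat_lit 11297, nat_lit 4114, nat_lit 37890],
  [nat_lit 70, nat_lit 46, nat_lit 22, nat_lit 766356028361936076464755090877248024628, nat_lit 39970, nat_lit 5153, nat_lit 5153, nat_lit 8225, nat_lit 11297, nat_lit 4114, nat_lit 37890],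
  [nat_lit 22, nat_lit 37890],
  [nat_lit 126, nat_lit 102, nat_lit 78, nat_lit 38, nat_lit 30, nat_lit 6, nat_lit 857546081811922981846925229637378810964, nat_lit 40002, nat_lit 9281, nat_lit 5184, nat_lit 11328, nat_lit 1074, nat_lit 540541643785503186429050126715868887092, nat_lit 39970, nat_lit 9249, nat_lit 5152, nat_lit 10273, nat_lit 2080, nat_lit 7186, nat_lit 37890],
  [nat_lit 102, nat_lit 62, nat_lit 38, nat_lit 30, nat_lit 6, nat_lit 127696318557225539175626101832645459028, nat_lit 40002, nat_lit 5184, nat_lit 9280, nat_lit 4146, nat_lit 611779304239200050767570315943312303156, nat_lit 39970, nat_lit 7186, nat_lit 37890],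
  [nat_lit 230, nat_lit 206, nat_lit 182, nat_lit 142, nat_lit 102, nat_lit 78, nat_lit 54, nat_lit 46, nat_lit 6, nat_lit 654215693713517919006833471306992241828, nat_lit 40082, nat_lit 9360, nat_lit 2192, nat_lit 11408, nat_lit 1154, nat_lit 898917307063315537276264598138669574276, nat_lit 15474, nat_lit 523198089686677817704532188943088859252, nat_lit 15458, nat_lit 436506770970567300932806567356847018084, nat_lit 40018, nat_lit 11344, nat_lit 2128, nat_lit 9297, nat_lit 4162, nat_lit 444508709071110062909515280489624218692, nat_lit 38962, nat_lit 711602993260644156580852056351618519092, nat_lit 39970, nat_lit 11297, nat_lit 2081, nat_lit 5152, nat_lit 7186, nat_lit 37890],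
  [nat_lit 142, nat_lit 118, nat_lit 78, nat_lit 54, nat_lit 46, nat_lit 6, nat_lit 425451870483886056121816182499208105060, nat_lit 40018, nat_lit 9296, nat_lit 12369, nat_lit 2129, nat_lit 11345, nat_lit 66, nat_lit 2112, nat_lit 2112, nat_lit 9281, nat_lit 2113, nat_lit 5184, nat_lit 7218, nat_lit 39970, nat_lit 2081, nat_lit 9249, nat_lit 5153, nat_lit 4114, nat_lit 37890],
  [nat_lit 158, nat_lit 134, nat_lit 110, nat_lit 86, nat_lit 62, nat_lit 38, nat_lit 30, nat_lit 6, nat_lit 443230105558549580780786134019682196580, nat_lit 40018, nat_lit 5200, nat_lit 9297, nat_lit 66, nat_lit 9281, nat_lit 2112, nat_lit 5184, nat_lit 2112, nat_lit 4146, nat_lit 242812908060826619230285219708172186676, nat_lit 38946, nat_lit 997757404214162022540671691509868331044, nat_lit 15378, nat_lit 37890],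
  [nat_lit 174, nat_lit 150, nat_lit 126, nat_lit 102, nat_lit 62, nat_lit 38, nat_lit 30, nat_lit 6, nat_lit 443230105558549580780786134019682196596, nat_lit 40034, nat_lit 2144, nat_lit 9312, nat_lit 2145, nat_lit 1106, nat_lit 519176646718915494415911449454887519316, nat_lit 15426, nat_lit 456304509270592319262579353311269817412, nat_lit 15410, nat_lit 284775826821582588630009584965512249396, nat_lit 15394, nat_lit 275695819031030119198034351631608423460, nat_lit 15378, nat_lit 37890],
  [nat_lit 214, nat_lit 190, nat_lit 166, nat_lit 142, nat_lit 118, nat_lit 78, nat_lit 38, nat_lit 30, nat_lit 6, nat_lit 654215693713517919006833471306992241812, nat_lit 40066, nat_lit 5248, nat_lit 9345, nat_lit 114, nat_lit 9328, nat_lit 5233, nat_lit 4194, nat_lit 618772043824003571988194478350547493988, nat_lit 15442, nat_lit 188065488253173241358690408738049412180, nat_lit 15426, nat_lit 143891101571566374150531147274443600964, nat_lit 15410, nat_lit 238306009645249866934446132977891259444, nat_lit 15394, nat_lit 946923216925745436820146361009886789668,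 nat_lit 15378, nat_lit 37890],
  [nat_lit 214, nat_lit 190, nat_lit 166, nat_lit 126, nat_lit 86, nat_lit 62, nat_lit 38, nat_lit 30, nat_lit 6, nat_lit 654215693713517919006833471306992241812, nat_lit 40066, nat_lit 9345, nat_lit 2176, nat_lit 11392, nat_lit 1138, nat_lit 15580883849146068068309735539386782836, nat_lit 40034, nat_lit 11360, nat_lit 2145, nat_lit 4178, nat_lit 598828153245636765135355640007908497492, nat_lit 15426, nat_lit 908249674542558062381640674060054837316, nat_lit 15410, nat_lit 151948232819037510356180270152008741940, nat_lit 15394, nat_lit 344582099842985246169157098702216931364, nat_lit 15378, nat_lit 37890],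
  [nat_lit 238, nat_lit 214, nat_lit 190, nat_lit 166, nat_lit 142, nat_lit 102, nat_lit 62, nat_lit 38, nat_lit 30, nat_lit 6, nat_lit 425451870483886056121816182499208105124, nat_lit 40082, nat_lit 11409, nat_lit 2193, nat_lit 11409, nat_lit 2192, nat_lit 7298, nat_lit 998791007975582806176755650369857068164, nat_lit 15474, nat_lit 576227436587383020584256763464381959284, nat_lit 15458, nat_lit 711949588290372520578513661312166534244, nat_lit 15442, nat_lit 851377553276503811115713547073740266580, nat_lit 15426, nat_lit 226737555725284483052387603746750053444, nat_lit 38962, nat_lit 262385689745410385053526912428362091572, nat_lit 15394, nat_lit 688588139969958384722731653371699253284, nat_lit 15378, nat_lit 37890],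
  [nat_lit 86, nat_lit 62, nat_lit 38, nat_lit 30, nat_lit 6, nat_lit 857546081811922981846925229637378810932, nat_lit 39970, nat_lit 12321, nat_lit 5152, nat_lit 1042, nat_lit 37890],
  [nat_lit 286, nat_lit 262, nat_lit 238, nat_lit 214, nat_lit 190, nat_lit 166, nat_lit 142, nat_lit 102, nat_lit 62, nat_lit 38, nat_lit 30, nat_lit 6, nat_lit 654215693713517919006833471306992241860, nat_lit 40114, nat_lit 5296, nat_lit 9393, nat_lit 162, nat_lit 9376, nat_lit 5281, nat_lit 4242, nat_lit 443230105558549580780786134019682196628, nat_lit 40066, nat_lit 2176, nat_lit 9345, nat_lit 5249, nat_lit 4210, nat_lit 428687973920978498206476182145963864180, nat_lit 15458, nat_lit 904101193992516479433709143625005616228, nat_lit 15442, nat_lit 604935646270395412000315925361565302868, nat_lit 15426, nat_lit 260864023124284129554715494773445218372, nat_lit 38962, nat_lit 639618808605225420752452491398914526260, nat_lit 15394, nat_lit 768975340528950690851681871987290264612, nat_lit 15378, nat_lit 37890],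
  [nat_lit 134, nat_lit 110, nat_lit 86, nat_lit 62, nat_lit 38, nat_lit 30, nat_lit 6, nat_lit 443230105558549580780786134019682196564, nat_lit 40002, nat_lit 5184, nat_lit 9281, nat_lit 50, nat_lit 9264, nat_lit 2096, nat_lit 5168, nat_lit 34, nat_lit 11297, nat_lit 9248, nat_lit 4114, nat_lit 37890],
  [nat_lit 214, nat_lit 190, nat_lit 166, nat_lit 126, nat_lit 86, nat_lit 62, nat_lit 38, nat_lit 30, nat_lit 6, nat_lit 425451870483886056121816182499208105108, nat_lit 40066, nat_lit 11393, nat_lit 2177, nat_lit 11393, nat_lit 2176, nat_lit 7282, nat_lit 220702655309661706906194341583793992820, nat_lit 39010, nat_lit 51967365836080707465242758656960139364, nat_lit 15442, nat_lit 523198089686677817704532188943088859220, nat_lit 15426, nat_lit 909381614425678592650446082779394637892, nat_lit 15410, nat_lit 286260455604749462781278744016193593396, nat_lit 15394, nat_lit 619845340754479665247911375136519103524, nat_lit 15378, nat_lit 37890],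
  [nat_lit 214, nat_lit 190, nat_lit 166, nat_lit 142, nat_lit 102, nat_lit 78, nat_lit 54, nat_lit 46, nat_lit 6, nat_lit 606641519950721533374219019611397424276, nat_lit 40066, nat_lit 5248, nat_lit 12417, nat_lit 2177, nat_lit 4210, nat_lit 693324197042786429668458207671571797108, nat_lit 15458, nat_lit 63892942760575218295820178398414081124, nat_lit 15442, nat_lit 111291108079144198854713716194019807316, nat_lit 15426, nat_lit 275695819031030119198034351631608423492, nat_lit 15410, nat_lit 5663583452419573137426280924720080948, nat_lit 39970, nat_lit 12321, nat_lit 2081, nat_lit 11297, nat_lit 2080, nat_lit 7186, nat_lit 37890],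
  [nat_lit 254, nat_lit 230, nat_lit 206, nat_lit 182, nat_lit 142, nat_lit 102, nat_lit 78, nat_lit 54, nat_lit 46, nat_lit 6, nat_lit 654215693713517919006833471306992241844, nat_lit 40098, nat_lit 5281, nat_lit 11425, nat_lit 146, nat_lit 2192, nat_lit 9360, nat_lit 2193, nat_lit 5264, nat_lit 7298, nat_lit 453578343008620509751698408813821931652, nat_lit 15474, nat_lit 233956298505873393250542572031030415476, nat_lit 15458, nat_lit 444507409882905177633619823054898308196, nat_lit 15442, nat_lit 641356994389967068532612976345537089620, nat_lit 15426, nat_lit 15410, nat_lit 893325883528024791964178876403135779892, nat_lit 39970, nat_lit 5152, nat_lit 2080, nat_lit 9248, nat_lit 5153, nat_lit 1042, nat_lit 37890],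
  [nat_lit 174, nat_lit 150, nat_lit 126, nat_lit 102, nat_lit 78, nat_lit 38, nat_lit 30, nat_lit 6, nat_lit 606641519950721533374219019611397424244, nat_lit 40034, nat_lit 5217, nat_lit 8289, nat_lit 82, nat_lit 2129, nat_lit 8273, nat_lit 5200, nat_lit 8273, nat_lit 1090, nat_lit 693322313768315019356630817051727276100, nat_lit 15410, nat_lit 943805955676046237151358728306503614516, nat_lit 15394, nat_lit 781064479956943363434322583074194852900, nat_lit 15378, nat_lit 37890],
  [nat_lit 182, nat_lit 158, nat_lit 134, nat_lit 110, nat_lit 86, nat_lit 62, nat_lit 38, nat_lit 30, nat_lit 6, nat_lit 443230105558549580780786134019682196596, nat_lit 40034, nat_lit 5216, nat_lit 9313, nat_lit 82, nat_lit 9297, nat_lit 2128, nat_lit 5200, nat_lit 2128, nat_lit 4162, nat_lit 242812908060826619230285219708172186692, nat_lit 38962, nat_lit 606641519950721533374219019611397424180, nat_lit 15394, nat_lit 63025808736248037629036976689576675364, nat_lit 15378, nat_lit 37890],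
  [nat_lit 222, nat_lit 198, nat_lit 174, nat_lit 150, nat_lit 126, nat_lit 86, nat_lit 62, nat_lit 38, nat_lit 30, nat_lit 6, nat_lit 606641519950721533374219019611397424276, nat_lit 40066, nat_lit 2177, nat_lit 2177, nat_lit 5249, nat_lit 11393, nat_lit 1138, nat_lit 538639952455385657658433712400904566900, nat_lit 15458, nat_lit 650795270726792359821847278593515200612, nat_lit 15442, nat_lit 410006281158078189009807996874541553748, nat_lit 15426, nat_lit 989138543141582306665692030415690500164, nat_lit 39986, nat_lit 5169, nat_lit 2097, nat_lit 5169, nat_lit 11313, nat_lit 4130, nat_lit 919452224825499847006935433714564535332, nat_lit 15378, nat_lit 37890],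
  [nat_lit 126, nat_lit 102, nat_lit 62, nat_lit 38, nat_lit 30, nat_lit 6, nat_lit 601021959071626241509618230375094754388, nat_lit 40002, nat_lit 10305, nat_lit 2113, nat_lit 9280, nat_lit 1074, nat_lit 864755508974657796051747360180433724468, nat_lit 15394, nat_lit 864773758782020238638525904678920654884, nat_lit 15378, nat_lit 37890],
  [nat_lit 174, nat_lit 150, nat_lit 126, nat_lit 102, nat_lit 62, nat_lit 38, nat_lit 30, nat_lit 6, nat_lit 606641519950721533374219019611397424244, nat_lit 40034, nat_lit 5216, nat_lit 12385, nat_lit 2145, nat_lit 4178, nat_lit 693324197042786429668458207671571797076, nat_lit 15426, nat_lit 63892942760575218295820178398414081092, nat_lit 15410, nat_lit 111291108079144198854713716194019807284, nat_lit 15394, nat_lit 966825437179210885651260730069154666532, nat_lit 15378, nat_lit 37890],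
  [nat_lit 262, nat_lit 238, nat_lit 214, nat_lit 190, nat_lit 166, nat_lit 126, nat_lit 86, nat_lit 62, nat_lit 38, nat_lit 30, nat_lit 6, nat_lit 425451870483886056121816182499208105140, nat_lit 40098, nat_lit 11425, nat_lit 2209, nat_lit 11425, nat_lit 2208, nat_lit 7314, nat_lit 998791007975582806176755650369857068180, nat_lit 15490, nat_lit 576227436587383020584256763464381959300, nat_lit 15474, nat_lit 711949588290372520578513661312166534260, nat_lit 15458, nat_lit 851377553276503811115713547073740266596, nat_lit 15442, nat_lit 226737555725284483052387603746750053460, nat_lit 38978, nat_lit 262385689745410385053526912428362091588, nat_lit 15410, nat_lit 688588139969958384722731653371699253300, nat_lit 15394, nat_lit 641359839049925214906064635245667910692, nat_lit 15378, nat_lit 37890],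
  [nat_lit 174, nat_lit 150, nat_lit 126, nat_lit 86, nat_lit 62, nat_lit 38, nat_lit 30, nat_lit 6, nat_lit 772641276037272121428696797597445667956, nat_lit 15458, nat_lit 255883303259972592619261401014422080612, nat_lit 15442, nat_lit 234662126130752394616796641331967775828, nat_lit 15426, nat_lit 273332936517496004672670736105967168580, nat_lit 15410, nat_lit 20507677110797557706006423433762982964, nat_lit 15394, nat_lit 49710160773070103303292739228678502436, nat_lit 15378, nat_lit 37890],
  [nat_lit 142, nat_lit 118, nat_lit 94, nat_lit 70, nat_lit 46, nat_lit 22, nat_lit 69705696201690612642687540611115394148, nat_lit 15442, nat_lit 358165128132656626917067241336674616404, nat_lit 40002, nat_lit 2112, nat_lit 9281, nat_lit 2113, nat_lit 9280, nat_lit 50, nat_lit 2096, nat_lit 11313, nat_lit 1058, nat_lit 663665678072936573093823950458822797348, nat_lit 38930, nat_lit 37890]]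

def Wb : List (List ℕ) := [
  [nat_lit 48743280836546542890139961494315435, nat_lit 1, nat_lit 396690505815100860180680718225127150],
  [nat_lit 549187281797633628764307416018011146, nat_lit 1, nat_lit 310498750355679848468408456443352641],
  [nat_lit 48743280836546542890139961494315435, nat_lit 1, nat_lit 113722323258953467649469112368081456, nat_lit 1, nat_lit 625231158034963751179088814907374279],
  [nat_lit 549187281797633628764307416018011146, nat_lit 1, nat_lit 839906916660113757580276471525758582, nat_lit 1, nat_lit 924373637896886985737282249510128149],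
  [nat_lit 916929296566539480487201805803994345, nat_lit 1, nat_lit 653707854473446124835448097378720387],
  [nat_lit 401889027620143548185503598335498247, nat_lit 1, nat_lit 342300728690368537820338099733304641],
  [nat_lit 154526027097111528274677686010453478, nat_lit 1, nat_lit 920991953934609698405196493033803431],
  [nat_lit 582012867857009595623888334321128967, nat_lit 1, nat_lit 850614288908183258045887148755260758],
  [nat_lit 747825807648293148266927092880644564, nat_lit 1, nat_lit 508196757681529385125469585934031158],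
  [nat_lit 681756042742133407305696192542450153, nat_lit 1, nat_lit 689409546375805391431135670878672461],
  [nat_lit 279515270677996929392730739126189120, nat_lit 1, nat_lit 919820333956742713235926313191310592]]
def W (i : ℕ) : List ℕ := Wb.getD i []
def cat : List (List ℕ) → ℕ → ℕ → List ℕ
  | [], _, _ => []
  | a :: l, k, i => bif' (tb k i) a [] ++ cat l k (i + 1)
def WV (v : ℕ) : List ℕ := cat ((List.range 11).map W) v 0
def gComm (i j : ℕ) : List ℕ × List ℕ := (bif' (Nat.beq i j) (W i ++ W i) ((W i ++ W j) ++ (W i ++ W j)), [pone])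
def gConj (c i : ℕ) : List ℕ × List ℕ := (c :: (W i ++ pinv c :: WV (act c (2 ^ i))), [pone])
def gsB : List (List ℕ × List ℕ) := ((List.range 11).flatMap fun i => (List.range (i + 1)).map (gComm i)) ++
  ((List.range 11).map (gConj x0) ++ ((List.range 11).map (gConj y0) ++ [(WV 739 ++ [pone, 1, pone], [pone])]))

theorem chkA1 : chkW mvK0 [wTT 0, wCube m1 pone, wZ] scA1
    [([gs0, 1, pone], [pone, 1, gs0]), ([gs1, 1, pone], [pone, 1, gs1]), wTT 1] gcA1 = true := by decide +kernel
theorem chkA2 : chkW mvK [wTT 0, wCube m1 pone, wZ, wR2] scA2 [wLine, wTv] gcA2 = true := by decide +kernel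
theorem chkB : chkW mvK [wTT 1, wLine, wDz b2 2, wDz b3 3] scB gsB gcB = true := by decide +kernel

variable {Γ : Type*} [Group Γ]

theorem evL_cat {μ : MH Γ} {sy : ℕ → Γ} (l : List (List ℕ)) (k i : ℕ) :
    evL μ sy (cat l k i) = pl (l.map (evL μ sy)) k i := by
  induction l generalizing i with
  | nil => rfl
  | cons a l ih =>
    rw [cat, evL_append, ih, List.map_cons, pl, bit_eq, bif'_eq]
    simp only [tb_eq_true]
    split_ifs <;> simp

/-- the values of the symbols -/
def syK (κ : M24 →* Γ) (t : Γ) (n : ℕ) : Γ :=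
  if n = 0 then t else if n = 1 then (kc κ m3 * t) ^ 3 else
  if n = 2 then (kc κ m3 * t) ^ 3 * (kc κ b2 * (kc κ m3 * t) ^ 3) else (kc κ m3 * t) ^ 3 * (kc κ b3 * (kc κ m3 * t) ^ 3)

variable {κ : M24 →* Γ} {t : Γ}

theorem hw_Z : HW (MH.triv κ) (syK κ t) wZ := by
  refine ⟨good_of_chkL (by decide +kernel), good_of_chkL (by decide +kernel), ?_⟩
  simp only [wZ, wCube, evL_one, evL_0, evL_1, evL_p m3_in, evL_nil, mul_one]
  change (kc κ m3 * t) ^ 3 = kc κ m3 * (t * (kc κ m3 * (t * (kc κ m3 * t))))
  simp only [pow_succ, pow_zero, one_mul, mul_assoc]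

theorem RK.resA1 (h : RK κ t) : Commute (syK κ t 1) (kc κ gs0) ∧ Commute (syK κ t 1) (kc κ gs1) ∧
    syK κ t 1 * syK κ t 1 = 1 := by
  have := chkW_spec (μ := MH.triv κ) (sy := syK κ t) (mover0 h) (fun g hg => ?_) chkA1
  · simp only [List.mem_cons, List.not_mem_nil, or_false, forall_eq_or_imp, forall_eq] at this
    obtain ⟨⟨-, -, a⟩, ⟨-, -, b⟩, -, -, c⟩ := this
    simp only [wTT, evL_one, evL_1, evL_p gs0_in, evL_p gs1_in, evL_nil, mul_one] at a b c
    exact ⟨a.symm, b.symm, c⟩
  · simp only [List.mem_cons, List.not_mem_nil, or_false] at hg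
    rcases hg with rfl | rfl | rfl
    · exact hw_TT (by norm_num) h.t2
    · exact hw_ga h
    · exact hw_Z

theorem RK.moverK (h : RK κ t) : Mover (MH.triv κ) (syK κ t) mvK := fun s hs x hx e => by
  simp only [mvK, bif'_eq, band_eq_true, beq_iff, force_eq] at e ⊢
  split_ifs at e ⊢ with c d
  · obtain ⟨g, hg, e1⟩ := hx.2
    have := (comm_gen (κ := κ) (t := syK κ t 1) (l := [gs0, gs1]) ?_ (SS_le ⟨hg, ?_⟩)).2
    · rw [c, MH.ev, d.1, MH.ν_zero, one_mul, ← e1]
      exact ⟨hx, this.eq, this.symm.eq⟩
    · simp only [List.mem_cons, List.not_mem_nil, or_false, forall_eq_or_imp, forall_eq]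
      exact ⟨⟨gs0_in, h.resA1.1⟩, gs1_in, h.resA1.2.1⟩
    · exact ((famC 6).smul_dec (by decide +kernel) (by decide +kernel)).2 (e1 ▸ beq_iff.1 d.2)
  · exact absurd rfl e
  · exact mover0 (μ := MH.triv κ) (sy := syK κ t) h s hs x hx e

theorem RK.resA2 (h : RK κ t) (h2 : R2 κ t) : ∀ g ∈ [wLine, wTv], HW (MH.triv κ) (syK κ t) g := by
  refine chkW_spec h.moverK (fun g hg => ?_) chkA2
  simp only [List.mem_cons, List.not_mem_nil, or_false] at hg
  rcases hg with rfl | rfl | rfl | rfl
  · exact hw_TT (by norm_num) h.t2
  · exact hw_ga h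
  · exact hw_Z
  · exact hw_R2.2 h2

theorem RK.resB (h : RK κ t) (h2 : R2 κ t) : ∀ g ∈ gsB, HW (MH.triv κ) (syK κ t) g := by
  refine chkW_spec h.moverK (fun g hg => ?_) chkB
  simp only [List.mem_cons, List.not_mem_nil, or_false] at hg
  rcases hg with rfl | rfl | rfl | rfl
  · exact hw_TT (by norm_num) h.resA1.2.2
  · exact h.resA2 h2 _ (by simp)
  · refine ⟨good_of_chkL (by decide +kernel), good_of_chkL (by decide +kernel), ?_⟩
    simp only [wDz, evL_one, evL_1, evL_p (inM_of_chk (c := b2) (by decide +kernel)),
      evL_sy (show 2 < 64 by norm_num), evL_nil, mul_one]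
    rfl
  · refine ⟨good_of_chkL (by decide +kernel), good_of_chkL (by decide +kernel), ?_⟩
    simp only [wDz, evL_one, evL_1, evL_p (inM_of_chk (c := b3) (by decide +kernel)),
      evL_sy (show 3 < 64 by norm_num), evL_nil, mul_one]
    rfl

/-- the twelve relators produce the whole split extension -/
theorem RK.exists_MH (h : RK κ t) (h2 : R2 κ t) : ∃ μ : MH Γ, μ.κ = κ ∧ RS μ t ∧ Be μ t := by
  have B := h.resB h2
  let β : ℕ → Γ := fun i => evL (MH.triv κ) (syK κ t) (W i)
  let ν : ℕ → Γ := fun v => evL (MH.triv κ) (syK κ t) (WV v)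
  have c0 : ∀ i < 11, ∀ j ≤ i, HW (MH.triv κ) (syK κ t) (gComm i j) := fun i hi j hj =>
    B _ (List.mem_append_left _ (List.mem_flatMap.2 ⟨i, List.mem_range.2 hi,
      List.mem_map_of_mem (List.mem_range.2 (Nat.lt_succ_of_le hj))⟩))
  have c1 : ∀ i < 11, β i * β i = 1 := fun i hi => by
    have := (c0 i hi i le_rfl).2.2
    simpa only [gComm, Nat.beq_refl, bif'_true, evL_append, evL_one, evL_nil] using this
  have c2 : ∀ i < 11, ∀ j < i, Commute (β i) (β j) := fun i hi j hj => by
    have := (c0 i hi j hj.le).2.2
    rw [gComm, bif'_eq, if_neg (by rw [beq_iff]; omega)] at this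
    simp only [evL_append, evL_one, evL_nil] at this
    change β i * β j * (β i * β j) = 1 at this
    have e := inv_eq_of_mul_eq_one_right this
    rw [mul_inv_rev, inv_eq_of_mul_eq_one_right (c1 i hi), inv_eq_of_mul_eq_one_right (c1 j (hj.trans hi))] at e
    exact e.symm
  have νe : ∀ v, ν v = pl ((List.range 11).map β) v 0 := fun v => by
    simp only [ν, WV, evL_cat, List.map_map]; rfl
  have νx : ∀ a b, ν (a ^^^ b) = ν a * ν b := fun a b => by
    rw [νe, νe, νe]
    refine pl_xor (fun x hx y hy => ?_) (fun x hx => ?_) a b 0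
    · obtain ⟨i, hi, rfl⟩ := List.mem_map.1 hx
      obtain ⟨j, hj, rfl⟩ := List.mem_map.1 hy
      rw [List.mem_range] at hi hj
      rcases lt_trichotomy i j with c | rfl | c
      · exact (c2 j hj i c).symm
      · exact Commute.refl _
      · exact c2 i hi j c
    · obtain ⟨i, hi, rfl⟩ := List.mem_map.1 hx
      exact c1 i (List.mem_range.1 hi)
  have ν0 : ν 0 = 1 := by simpa using νx 0 0
  have ν2 : ∀ a, ν a * ν a = 1 := fun a => by rw [← νx, Nat.xor_self, ν0]
  have νb : ∀ i < 11, ν (2 ^ i) = β i := fun i hi => by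
    rw [νe]
    interval_cases i <;> simp [pl, List.range, List.range.loop, Nat.shiftRight_eq_div_pow]
  have g1 : ∀ c ∈ [x0, y0], InH M24 c ∧ ∀ i < 11, HW (MH.triv κ) (syK κ t) (gConj c i) := by
    simp only [List.mem_cons, List.not_mem_nil, or_false, forall_eq_or_imp, forall_eq]
    exact ⟨⟨x0_in, fun i hi => B _ (List.mem_append_right _ (List.mem_append_left _
      (List.mem_map_of_mem (List.mem_range.2 hi))))⟩, y0_in, fun i hi => B _ (List.mem_append_right _
        (List.mem_append_right _ (List.mem_append_left _ (List.mem_map_of_mem (List.mem_range.2 hi)))))⟩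
  have g2 : ∀ p : Perm Pt, code p ∈ [x0, y0] → ∀ v < 2048,
      kc κ (code p) * ν v * (kc κ (code p))⁻¹ = ν (act (code p) v) := fun p hp => by
    refine xor_induction (n := 11) _ ?_ (fun a b ha hb e f => ?_) fun i hi => ?_
    · have := act_xor p (a := 0) (b := 0) (by norm_num) (by norm_num)
      rw [Nat.xor_self, Nat.xor_self] at this
      rw [this, ν0]; group
    · rw [act_xor p ha hb, νx, νx, ← e, ← f]; group
    · have := ((g1 _ hp).2 i hi).2.2
      simp only [gConj, evL_p (g1 _ hp).1, evL_p (g1 _ hp).1.inv, evL_append, evL_one, evL_nil,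
        kc_inv _ (g1 _ hp).1] at this
      rw [νb i hi, ← inv_eq_of_mul_eq_one_right (ν2 (act (code p) (2 ^ i)))]
      refine eq_inv_of_mul_eq_one_left ?_
      rw [mul_assoc, mul_assoc]
      exact this
  have g3 : ∀ p ∈ gen [x0, y0], p ∈ M24 ∧ ∀ T : Finset Pt, Even T.card →
      kc κ (code p) * ν (coc (mask T)) * (kc κ (code p))⁻¹ = ν (coc (mask (p • T))) := fun p hp => by
    refine gen_induction (fun p => p ∈ M24 ∧ ∀ T : Finset Pt, Even T.card →
      kc κ (code p) * ν (coc (mask T)) * (kc κ (code p))⁻¹ = ν (coc (mask (p • T)))) ?_ (fun g q a b => ?_) hp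
    · exact ⟨one_mem _, fun T _ => by rw [code_one, kc_one, one_smul]; group⟩
    · have gm := inH_code.1 (g1 _ a).1
      refine ⟨mul_mem gm b.1, fun T hT => ?_⟩
      rw [← pmul_code, kc_mul _ (g1 _ a).1 (inH_code.2 b.1), mul_smul,
        ← act_coc gm (by rw [Finset.card_smul_finset]; exact hT), ← g2 g a _ (coc_lt _), ← b.2 T hT]
      group
  let μ : MH Γ := ⟨ν, κ, fun a _ b _ => νx a b, fun p a ha => by
    rw [act_def _ ha, ← (g3 _ (M24_le_xy p.2)).2 _ (even_sec ha), mask_unmask (sec_spec ha).2.1, (sec_spec ha).1,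
      kc_code]⟩
  have be : syK κ t 1 = ν 739 := by
    have := (B _ (List.mem_append_right _ (List.mem_append_right _ (List.mem_append_right _
      (List.mem_singleton.2 rfl))))).2.2
    simp only [evL_append, evL_one, evL_1, evL_nil, mul_one] at this
    exact (eq_inv_of_mul_eq_one_right this).trans (inv_eq_of_mul_eq_one_right (ν2 739))
  have czi : InH M24 cz := inM_of_chk (by decide +kernel)
  have e20 : kc κ cz * ν 739 = ν 20 * kc κ cz :=
    (μ.kc_ν czi (show 739 < 2048 by norm_num)).trans (by rw [show actF cz 739 = 20 by decide +kernel])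
  refine ⟨μ, rfl, ⟨h, ?_⟩, be⟩
  have := (h.resA2 h2 wTv (by simp)).2.2
  simp only [wTv, evL_one, evL_0, evL_1, evL_p czi, evL_p czi.inv, evL_p (czi.inv.mul k20_in), evL_nil, mul_one,
    kc_mul _ czi.inv k20_in, kc_inv _ czi, be] at this
  change t * (kc κ cz * (ν 739 * ((kc κ cz)⁻¹ * t))) = kc κ cz * (ν 739 * ((kc κ cz)⁻¹ * kc κ k20)) at this
  rw [← mul_assoc (kc κ cz), ← mul_assoc (kc κ cz), e20, mul_assoc, mul_assoc, mul_inv_cancel_left,
    mul_inv_cancel_left] at this
  exact (mul_assoc _ _ _).trans this

end

theorem realizeEqns_J4u_Nu : True := by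
  have := @CA.J4u.gs0.eq_1
  have := @CA.J4u.gs0.eq_def
  have := @CA.J4u.gs0.congr_simp
  have := @CA.J4u.cz.eq_1
  have := @CA.J4u.cz.eq_def
  have := @CA.J4u.cz.congr_simp
  have := @CA.J4u.fixS.eq_1
  have := @CA.J4u.fixS.eq_def
  have := @CA.J4u.fixS.congr_simp
  have := @CA.J4u.gComm.eq_1
  have := @CA.J4u.gComm.eq_def
  have := @CA.J4u.gComm.congr_simp
  have := @CA.J4u.scA2.eq_1
  have := @CA.J4u.scA2.eq_def
  have := @CA.J4u.scA2.congr_simp
  have := @CA.J4u.W.eq_1
  have := @CA.J4u.W.eq_def
  have := @CA.J4u.W.congr_simp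
  have := @CA.J4u.SS.eq_1
  have := @CA.J4u.SS.eq_def
  have := @CA.J4u.SS.congr_simp
  have := @CA.J4u.cat.eq_1
  have := @CA.J4u.cat.eq_2
  have := @CA.J4u.cat.eq_def
  have := @CA.J4u.cat.congr_simp
  have := @CA.J4u.gcA2.eq_1
  have := @CA.J4u.gcA2.eq_def
  have := @CA.J4u.gcA2.congr_simp
  have := @CA.J4u.gsB.eq_1
  have := @CA.J4u.gsB.eq_def
  have := @CA.J4u.gsB.congr_simp
  have := @CA.J4u.wDz.eq_1
  have := @CA.J4u.wDz.eq_def
  have := @CA.J4u.wDz.congr_simp
  have := @CA.J4u.gConj.eq_1
  have := @CA.J4u.gConj.eq_def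
  have := @CA.J4u.gConj.congr_simp
  have := @CA.J4u.syK.eq_1.{0}
  have := @CA.J4u.syK.eq_def.{0}
  have := @CA.J4u.syK.congr_simp.{0}
  have := @CA.J4u.scA1.eq_1
  have := @CA.J4u.scA1.eq_def
  have := @CA.J4u.scA1.congr_simp
  have := @CA.J4u.scB.eq_1
  have := @CA.J4u.scB.eq_def
  have := @CA.J4u.scB.congr_simp
  have := @CA.J4u.mvK.eq_1
  have := @CA.J4u.mvK.eq_def
  have := @CA.J4u.mvK.congr_simp
  have := @CA.J4u.b3.eq_1
  have := @CA.J4u.b3.eq_def
  have := @CA.J4u.b3.congr_simp
  have := @CA.J4u.wLine.eq_1
  have := @CA.J4u.wLine.eq_def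
  have := @CA.J4u.wLine.congr_simp
  have := @CA.J4u.WV.eq_1
  have := @CA.J4u.WV.eq_def
  have := @CA.J4u.WV.congr_simp
  have := @CA.J4u.b2.eq_1
  have := @CA.J4u.b2.eq_def
  have := @CA.J4u.b2.congr_simp
  have := @CA.J4u.gcA1.eq_1
  have := @CA.J4u.gcA1.eq_def
  have := @CA.J4u.gcA1.congr_simp
  have := @CA.J4u.wTv.eq_1
  have := @CA.J4u.wTv.eq_def
  have := @CA.J4u.wTv.congr_simp
  have := @CA.J4u.wZ.eq_1
  have := @CA.J4u.wZ.eq_def
  have := @CA.J4u.wZ.congr_simp
  have := @CA.J4u.gcB.eq_1
  have := @CA.J4u.gcB.eq_def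
  have := @CA.J4u.gcB.congr_simp
  have := @CA.J4u.Wb.eq_1
  have := @CA.J4u.Wb.eq_def
  have := @CA.J4u.Wb.congr_simp
  have := @CA.J4u.gs1.eq_1
  have := @CA.J4u.gs1.eq_def
  have := @CA.J4u.gs1.congr_simp
  trivial

end CA.J4u
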