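import Cfsg.Agent.J4u.Tau

/-! The last relator follows from the braid relation. -/

set_option autoImplicit false
set_option maxRecDepth 100000

namespace CA.J4u

open CA.M24 CA.J4 Cfsg Equiv

noncomputable section

def a2 : ℕ := nat_lit 7335589876059544133660670393575779637
def a3 : ℕ := nat_lit 965018496129409765948763204762062230
def a4 : ℕ := nat_lit 844053057149928589448821933091425458
def a5 : ℕ := nat_lit 810689800070959494103908520750561927
def a6 : ℕ := nat_lit 441961769400087663329040571827703541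

variable {Γ : Type*} [Group Γ]

/-- representatives of the double cosets -/
def syG (μ : MH Γ) (t : Γ) (n : ℕ) : Γ :=
  if n = 2 then t * (μ.ev a2 * t) else if n = 3 then t * (μ.ev a3 * (t * (μ.ev a2 * t))) else
  if n = 4 then t * (μ.ev a4 * t) else if n = 5 then t * (μ.ev a5 * (t * (μ.ev a3 * (t * (μ.ev a2 * t))))) else
  if n = 6 then t * (μ.ev a6 * (t * (μ.ev a3 * (t * (μ.ev a2 * t))))) else t

def wDef (a j k : ℕ) : List ℕ × List ℕ := ([pone, 0, a, j, pone], [pone, k, pone])
def defsG : List (List ℕ × List ℕ) := [wDef a2 0 2, wDef a3 2 3, wDef a4 0 4, wDef a5 3 5, wDef a6 3 6]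

variable {μ : MH Γ} {t : Γ}

theorem hw_def {sy : ℕ → Γ} {a j k : ℕ} (ha : chkE a = true) (hj : j < 64) (hk : k < 64)
    (e : sy 0 * (μ.ev a * sy j) = sy k) : HW μ sy (wDef a j k) := by
  refine ⟨?_, (good_cons.2 ⟨Or.inl hk, good_nil.cons ok_one⟩).cons ok_one, ?_⟩
  · exact (good_cons.2 ⟨Or.inl (by norm_num),
      (good_cons.2 ⟨Or.inl hj, good_nil.cons ok_one⟩).cons (ok_of_chk ha)⟩).cons ok_one
  · simp only [wDef, evL_one, evL_0, evL_sy hj, evL_sy hk, evL_ok (ok_of_chk ha), evL_nil, mul_one, e]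

theorem hw_defsG : ∀ g ∈ defsG, HW μ (syG μ t) g := by
  simp only [defsG, List.mem_cons, List.not_mem_nil, or_false, forall_eq_or_imp, forall_eq]
  refine ⟨?_, ?_, ?_, ?_, ?_⟩ <;> exact hw_def (by decide +kernel) (by norm_num) (by norm_num) rfl

def wR2 : List ℕ × List ℕ := ([pi0, 0, pinv c2, 0, c2, pi0, 0, pinv c2, 0, c2], [pone])

theorem hw_R2 {sy : ℕ → Γ} : HW μ sy wR2 ↔ R2 μ.κ (sy 0) := by
  have a : Good wR2.1 := good_of_chkL (by decide +kernel)
  have b : Good wR2.2 := good_of_chkL (by decide +kernel)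
  simp only [HW, a, b, true_and]
  simp only [wR2, R2, evL_one, evL_0, evL_p pi0_in, evL_p c2_in, evL_p c2_in.inv, kc_inv _ c2_in, evL_nil, mul_one,
    pow_two, mul_assoc]

def scD : List (List ℕ × List ℕ) := [
  ([pone, nat_lit 0, nat_lit 964593714816261008327593313106998304, nat_lit 0, pone], [nat_lit 992368857887583835991345935660718522405, nat_lit 33, nat_lit 1024]),
  ([pone, nat_lit 0, nat_lit 6301730227675418019718777280579864608, nat_lit 0, pone], [nat_lit 6452971753139628052192027935313781358629, nat_lit 1057, nat_lit 3072]),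
  ([pone, nat_lit 0, pone], [nat_lit 992368857887583835991345935660718522389, nat_lit 2065, nat_lit 1024]),
  ([pone, nat_lit 0, pone], [nat_lit 6452971753139628052192027935313781358613, nat_lit 3089, nat_lit 1024]),
  ([pone, nat_lit 2, pone], [nat_lit 7169, nat_lit 513131674487644451583671014693494503444, nat_lit 7170]),
  ([pone, nat_lit 2, pone], [nat_lit 8193, nat_lit 1619391390958387944868587667161895103660052, nat_lit 8194]),
  ([pone, nat_lit 2, pone], [nat_lit 9217, nat_lit 4914169834045454245198383940462190220308, nat_lit 9218]),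
  ([pone, nat_lit 2, pone], [nat_lit 10241, nat_lit 540315828503839056568419007983230418964, nat_lit 10242]),
  ([pone, nat_lit 0, pone, nat_lit 2, pone], [nat_lit 11281, nat_lit 8192]),
  ([pone, nat_lit 0, nat_lit 5775395072834071972939072877514441422, nat_lit 0, pone], [nat_lit 5120, nat_lit 8210, nat_lit 513331449209084627429174481537285476372, nat_lit 12290]),
  ([pone, nat_lit 2, pone], [nat_lit 13313, nat_lit 490735849449220201805522274227129013268, nat_lit 2]),
  ([pone, nat_lit 0, nat_lit 1583589777506428114590309332915184118339, nat_lit 0, pone], [nat_lit 8192, nat_lit 9234, nat_lit 770181454228621354386761988747368211476, nat_lit 14338]),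
  ([pone, nat_lit 2, pone], [nat_lit 15361, nat_lit 2]),
  ([pone, nat_lit 0, nat_lit 631413372201340571470482005795753253, nat_lit 2, pone], [nat_lit 10240, nat_lit 4114, nat_lit 4317749593999671200959637994844203924500, nat_lit 16386]),
  ([pone, nat_lit 3, pone], [nat_lit 18433, nat_lit 9232, nat_lit 1040, nat_lit 7184, nat_lit 1041, nat_lit 18434]),
  ([pone, nat_lit 3, pone], [nat_lit 19457, nat_lit 2064, nat_lit 10257, nat_lit 10257, nat_lit 2064, nat_lit 19458]),
  ([pone, nat_lit 0, nat_lit 1028173807267086664925814073339895877798, nat_lit 0, pone], [nat_lit 13312, nat_lit 19474, nat_lit 8209, nat_lit 3089, nat_lit 10257, nat_lit 5137, nat_lit 20482]),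
  ([pone, nat_lit 0, nat_lit 970838165879257770962967586858101835299, nat_lit 3, pone], [nat_lit 17, nat_lit 17408]),
  ([pone, nat_lit 0, nat_lit 5904558478428285397004258564312760658, nat_lit 2, pone], [nat_lit 14336, nat_lit 4114, nat_lit 7185, nat_lit 5137, nat_lit 11281, nat_lit 7185, nat_lit 12305, nat_lit 22530]),
  ([pone, nat_lit 3, pone], [nat_lit 23553, nat_lit 13328, nat_lit 8208, nat_lit 12304, nat_lit 6160, nat_lit 8208, nat_lit 2])]

def gcD : List (List ℕ) := [
  [nat_lit 38, nat_lit 1931026067189057095538555730528023717749812, nat_lit 3106, nat_lit 4129, nat_lit 33, nat_lit 5153, nat_lit 2066, nat_lit 20482]]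

theorem chkD' : chkW mvM (wTT 0 :: wCube m1 pone ::
    ([pone, 0, pr 4 pone, 0, pr 4 pone, 0, pr 4 pone], [kb]) :: defsG) scD [wR2] gcD = true := by decide +kernel

theorem r2_of_br (h : RS μ t) (b : Br μ t) : R2 μ.κ t := by
  refine (hw_R2 (sy := syG μ t)).1 (chkW_spec (moverM h) (fun g hg => ?_) chkD' _ (by simp))
  simp only [List.mem_cons] at hg
  rcases hg with rfl | rfl | rfl | hg
  · exact hw_TT (by norm_num) h.t2
  · exact hw_ga h.toRK
  · refine ⟨good_of_chkL (by decide +kernel), good_of_chkL (by decide +kernel), ?_⟩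
    simp only [Br, pow_succ, pow_zero, one_mul, mul_assoc] at b
    simp only [evL_one, evL_0, evL_v (show 4 < 2048 by norm_num), evL_p kb_in, evL_nil, mul_one]
    exact b
  · exact hw_defsG g hg

end

theorem realizeEqns_J4u_R2 : True := by
  have := @CA.J4u.a5.eq_1
  have := @CA.J4u.a5.eq_def
  have := @CA.J4u.a5.congr_simp
  have := @CA.J4u.scD.eq_1
  have := @CA.J4u.scD.eq_def
  have := @CA.J4u.scD.congr_simp
  have := @CA.J4u.a2.eq_1
  have := @CA.J4u.a2.eq_def
  have := @CA.J4u.a2.congr_simp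
  have := @CA.J4u.a6.eq_1
  have := @CA.J4u.a6.eq_def
  have := @CA.J4u.a6.congr_simp
  have := @CA.J4u.defsG.eq_1
  have := @CA.J4u.defsG.eq_def
  have := @CA.J4u.defsG.congr_simp
  have := @CA.J4u.wR2.eq_1
  have := @CA.J4u.wR2.eq_def
  have := @CA.J4u.wR2.congr_simp
  have := @CA.J4u.a3.eq_1
  have := @CA.J4u.a3.eq_def
  have := @CA.J4u.a3.congr_simp
  have := @CA.J4u.a4.eq_1
  have := @CA.J4u.a4.eq_def
  have := @CA.J4u.a4.congr_simp
  have := @CA.J4u.syG.eq_1.{0}
  have := @CA.J4u.syG.eq_def.{0}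
  have := @CA.J4u.syG.congr_simp.{0}
  have := @CA.J4u.wDef.eq_1
  have := @CA.J4u.wDef.eq_def
  have := @CA.J4u.wDef.congr_simp
  have := @CA.J4u.gcD.eq_1
  have := @CA.J4u.gcD.eq_def
  have := @CA.J4u.gcD.congr_simp
  trivial

end CA.J4u
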